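import Mathlib
import Cfsg.Agent.S0595
import Cfsg.Agent.PLocal.ActionStable
import Cfsg.Agent.Lib.Cores
import Cfsg.Agent.OddOrderLocal.DecompBasic

/-!
# Quadratic action in characteristic three centralizes invariant subgroups of odd order prime to three
-/

set_option autoImplicit false
set_option linter.style.haveILetI false

namespace Cfsg.Agent.H451.QuadOdd

open Subgroup
open scoped commutatorElement
open Cfsg.Agent.Lib.Cores (le_pCore pCore_isPGroup pCore_normal map_equiv_pCore)

universe u v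

/-- the action as automorphisms of the multiplicative group -/
def toMul {Γ : Type v} {W : Type u} [Group Γ] [AddCommGroup W] [DistribMulAction Γ W] :
    Γ →* MulAut (Multiplicative W) where
  toFun g := AddEquiv.toMultiplicative (DistribMulAction.toAddEquiv W g)
  map_one' := by
    ext w
    show Multiplicative.ofAdd ((1 : Γ) • w.toAdd) = w
    rw [one_smul]; rfl
  map_mul' := by
    intro g h
    ext w
    show Multiplicative.ofAdd ((g * h) • w.toAdd) = Multiplicative.ofAdd (g • h • w.toAdd)
    rw [mul_smul]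

theorem toMul_apply {Γ : Type v} {W : Type u} [Group Γ] [AddCommGroup W] [DistribMulAction Γ W]
    (g : Γ) (w : Multiplicative W) :
    (toMul g : MulAut (Multiplicative W)) w = Multiplicative.ofAdd (g • w.toAdd) := rfl

theorem commute_of_odd {Γ : Type v} {W : Type u} [Group Γ] [Finite Γ] [AddCommGroup W] [Finite W]
    [DistribMulAction Γ W] [FaithfulSMul Γ W] (h3 : ∀ w : W, w + w + w = 0)
    (D : Subgroup Γ) (a : Γ) (hD2 : ¬ 2 ∣ Nat.card D) (hD3 : ¬ 3 ∣ Nat.card D)
    (haD : a ∈ normalizer (D : Set Γ)) (hq : ∀ w : W, a • a • w + a • w + w = 0) :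
    ∀ d ∈ D, a * d = d * a := by
  classical
  haveI : Fact (Nat.Prime 3) := ⟨by norm_num⟩
  haveI : Fact (Nat.Prime 2) := ⟨by norm_num⟩
  have ha3 : a ^ 3 = 1 := by
    apply FaithfulSMul.eq_of_smul_eq_smul (α := W)
    intro w
    have h1 : a • a • w = -(a • w) - w := by
      have := hq w
      have h2 : a • a • w = (a • a • w + a • w + w) - a • w - w := by abel
      rw [h2, this]; abel
    rw [pow_succ, pow_two, mul_smul, mul_smul, h1, smul_sub, smul_neg, h1, one_smul]
    abel
  have hφinj : Function.Injective (toMul : Γ →* MulAut (Multiplicative W)) := by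
    intro g h hgh
    apply FaithfulSMul.eq_of_smul_eq_smul (α := W)
    intro w
    have := congrArg (fun e : MulAut (Multiplicative W) => (e (Multiplicative.ofAdd w)).toAdd) hgh
    exact this
  set H : Subgroup Γ := D ⊔ zpowers a with hH
  have haH : a ∈ H := mem_sup_right (mem_zpowers a)
  have hDH : D ≤ H := le_sup_left
  -- the order of `H`
  have hHodd : ¬ 2 ∣ Nat.card H := by
    intro h2
    have h4 : zpowers a ≤ normalizer (D : Set Γ) := by rw [zpowers_le]; exact haD
    have h5 : Nat.card H ∣ Nat.card (zpowers a) * Nat.card D := by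
      rw [hH, sup_comm]
      exact OddOrderLocal.DecompBasic.card_sup_dvd h4
    have h6 : Nat.card (zpowers a) ∣ 3 := by
      rw [Nat.card_zpowers]
      exact orderOf_dvd_of_pow_eq_one ha3
    rcases (Nat.Prime.dvd_mul Nat.prime_two).mp (h2.trans h5) with h | h
    · have := h.trans h6
      norm_num at this
    · exact hD2 h
  let R : Subgroup (MulAut (Multiplicative W)) := H.map toMul
  let e : H ≃* R := H.equivMapOfInjective toMul hφinj
  let a' : R := e ⟨a, haH⟩
  have ha' : (a' : MulAut (Multiplicative W)) = toMul a := rfl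
  have hmem : a' ∈ Cfsg.pCore 3 R := by
    refine Cfsg.Agent.PLocal.ActionStable.mem_pCore_of_faithful (p := 3)
      (fun Γ _ => ∀ T : Sylow 2 Γ, IsMulCommutative T) ?_ ?_ ?_ R ?_ a' ?_
    · intro L _ _ V K hV hHV hf hK b hbK hqb
      by_contra hna
      obtain ⟨T⟩ := (inferInstance : Nonempty (Sylow 2 K))
      exact Cfsg.Agent.S0595.result (by norm_num) V K hV hHV hf b hbK hqb hna T (hK T)
    · intro x y
      exact mul_comm x y
    · intro x
      show Multiplicative.ofAdd (3 • x.toAdd) = 1
      have : 3 • x.toAdd = 0 := by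
        rw [← h3 x.toAdd]
        rw [succ_nsmul, two_nsmul]
      rw [this]; rfl
    · rintro B _ ⟨f⟩ T
      have hTB : Nat.card B = Nat.card H :=
        (Nat.card_congr (e.trans f).toEquiv).symm
      haveI : Finite B := Finite.of_equiv _ (e.trans f).toEquiv
      obtain ⟨n, hn⟩ := IsPGroup.iff_card.mp T.2
      have h1 : n = 0 := by
        by_contra hne
        apply hHodd
        rw [← hTB]
        have h2 : 2 ∣ Nat.card T := by
          rw [show Nat.card T = 2 ^ n from hn]
          exact dvd_pow_self 2 hne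
        exact h2.trans (card_subgroup_dvd_card _)
      rw [h1, pow_zero] at hn
      have hsub : Subsingleton (T : Subgroup B) := (Nat.card_eq_one_iff_unique.mp hn).1
      exact ⟨⟨fun x y => Subsingleton.elim _ _⟩⟩
    · intro w
      rw [ha', toMul_apply]
      show Multiplicative.ofAdd (a • (w * (Multiplicative.ofAdd (a • w.toAdd))⁻¹).toAdd) = _
      have e1 : (w * (Multiplicative.ofAdd (a • w.toAdd))⁻¹).toAdd = w.toAdd - a • w.toAdd := by
        rw [toAdd_mul, toAdd_inv, toAdd_ofAdd, sub_eq_add_neg]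
      rw [e1]
      have e2 : a • (w.toAdd - a • w.toAdd) = w.toAdd - a • w.toAdd := by
        have h4 := hq w.toAdd
        have h5 := h3 (a • w.toAdd)
        rw [smul_sub]
        have h6 : a • w.toAdd - a • a • w.toAdd = (w.toAdd - a • w.toAdd) +
            ((a • w.toAdd + a • w.toAdd + a • w.toAdd) -
              (a • a • w.toAdd + a • w.toAdd + w.toAdd)) := by abel
        rw [h6, h4, h5]; abel
      rw [e2, ← e1]; rfl
  -- commutators of `a` with `D`
  intro d hd
  have hdH : d ∈ H := hDH hd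
  let d' : R := e ⟨d, hdH⟩
  have hc1 : a' * d' * a'⁻¹ * d'⁻¹ ∈ Cfsg.pCore 3 R := by
    haveI := pCore_normal (G := R) 3
    have h1 : d' * a'⁻¹ * d'⁻¹ ∈ Cfsg.pCore 3 R :=
      this.conj_mem _ (inv_mem hmem) d'
    have h2 : a' * d' * a'⁻¹ * d'⁻¹ = a' * (d' * a'⁻¹ * d'⁻¹) := by group
    rw [h2]
    exact mul_mem hmem h1
  have hc2 : a * d * a⁻¹ * d⁻¹ ∈ D := by
    exact mul_mem ((mem_normalizer_iff.mp haD d).mp hd) (inv_mem hd)
  obtain ⟨k, hk⟩ := pCore_isPGroup (G := R) 3 ⟨_, hc1⟩
  have hk' : (a' * d' * a'⁻¹ * d'⁻¹) ^ 3 ^ k = 1 := congrArg Subtype.val hk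
  have hk2 : (a * d * a⁻¹ * d⁻¹) ^ 3 ^ k = 1 := by
    apply hφinj
    have h7 := congrArg (fun t : R => (t : MulAut (Multiplicative W))) hk'
    have h8 : ((a' : MulAut (Multiplicative W)) * (d' : MulAut (Multiplicative W)) *
        (a' : MulAut (Multiplicative W))⁻¹ * (d' : MulAut (Multiplicative W))⁻¹) ^ 3 ^ k = 1 := by
      simpa using h7
    simp only [map_pow, map_mul, map_inv, map_one]
    exact h8
  have ho : orderOf (a * d * a⁻¹ * d⁻¹) = 1 := by
    have h1 : orderOf (a * d * a⁻¹ * d⁻¹) ∣ 3 ^ k := orderOf_dvd_of_pow_eq_one hk2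
    have h2 : orderOf (a * d * a⁻¹ * d⁻¹) ∣ Nat.card D := by
      have := orderOf_dvd_natCard (⟨_, hc2⟩ : D)
      rwa [orderOf_mk] at this
    have h4 : Nat.Coprime (3 ^ k) (Nat.card D) :=
      Nat.Coprime.pow_left k ((Nat.Prime.coprime_iff_not_dvd (by norm_num)).mpr hD3)
    exact Nat.Coprime.eq_one_of_dvd (Nat.Coprime.coprime_dvd_left h1 h4) h2
  have h5 : a * d * a⁻¹ * d⁻¹ = 1 := orderOf_eq_one_iff.mp ho
  calc a * d = (a * d * a⁻¹ * d⁻¹) * d * a := by group
    _ = d * a := by rw [h5, one_mul]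

end Cfsg.Agent.H451.QuadOdd
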