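import Mathlib
import Cfsg.Agent.H451.QuadThree

/-!
# A `3`-group `X` with `[X, X]` abelian and quadratic, in characteristic three: main theorem
-/

set_option autoImplicit false
set_option linter.style.haveILetI false

namespace Cfsg.Agent.H451.QuadThree

open Subgroup
open scoped commutatorElement

universe u v

section

variable {Γ : Type u} {W : Type v} [Group Γ] [Finite Γ] [AddCommGroup W] [DistribMulAction Γ W]
  [FaithfulSMul Γ W]

theorem eq_zero_of_two (h3 : ∀ w : W, w + w + w = 0) {w : W} (h : w + w = 0) : w = 0 := by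
  have := h3 w
  rwa [h, zero_add] at this

theorem eq_zero_of_eq_neg (h3 : ∀ w : W, w + w + w = 0) {w : W} (h : w = -w) : w = 0 := by
  apply eq_zero_of_two h3
  nth_rewrite 1 [h]
  exact neg_add_cancel w

/-- **Main theorem.** -/
theorem commute_of_quadratic (h3 : ∀ w : W, w + w + w = 0) (X : Subgroup Γ) (hX : IsPGroup 3 X)
    (hcomm : ∀ a ∈ ⁅X, X⁆, ∀ b ∈ ⁅X, X⁆, a * b = b * a)
    (hq : ∀ a ∈ ⁅X, X⁆, ∀ w : W, a • a • w + a • w + w = 0)
    (hq2 : ∀ a ∈ ⁅X, X⁆, ∀ x ∈ X, ∀ w : W, a • (x • x • w + x • w + w) = x • x • w + x • w + w)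
    (C : Subgroup Γ) (hC : IsPGroup 2 C) (hXC : ∀ x ∈ X, ∀ c ∈ C, x * c * x⁻¹ ∈ C) :
    ∀ c ∈ C, ∀ a ∈ ⁅X, X⁆, a * c = c * a := by
  classical
  -- strong induction on the order of `C`
  induction hn : Nat.card C using Nat.strong_induction_on generalizing C with
  | _ n ih =>
  subst hn
  by_contra hcon
  set A : Subgroup Γ := ⁅X, X⁆ with hAdef
  have hAX : A ≤ X := commutator_le_self X
  have hAconj : ∀ x ∈ X, ∀ a ∈ A, x * a * x⁻¹ ∈ A := by
    intro x hx a ha
    have h1 : A.map (MulAut.conj x).toMonoidHom = A := by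
      rw [hAdef, map_commutator]
      have h2 : X.map (MulAut.conj x).toMonoidHom = X := by
        apply le_antisymm
        · rintro _ ⟨y, hy, rfl⟩
          exact mul_mem (mul_mem hx hy) (inv_mem hx)
        · intro y hy
          refine ⟨x⁻¹ * y * x, mul_mem (mul_mem (inv_mem hx) hy) hx, ?_⟩
          show x * (x⁻¹ * y * x) * x⁻¹ = y
          group
      rw [h2]
    rw [← h1]
    exact ⟨a, ha, rfl⟩
  -- cubes
  have ha3 : ∀ a ∈ A, a * a * a = 1 := by
    intro a ha
    apply FaithfulSMul.eq_of_smul_eq_smul (α := W)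
    intro w
    have h1 : a • a • w = -(a • w) - w := by
      have := hq a ha w
      have h2 : a • a • w = (a • a • w + a • w + w) - a • w - w := by abel
      rw [h2, this]; abel
    rw [mul_smul, mul_smul, h1, smul_sub, smul_neg, h1, one_smul]
    abel
  -- two-power orders in `C`
  have hC2 : ∀ c ∈ C, ∃ k : ℕ, c ^ (2 ^ k) = 1 := by
    intro c hc
    obtain ⟨k, hk⟩ := hC ⟨c, hc⟩
    exact ⟨k, congrArg Subtype.val hk⟩
  -- `X`-invariant proper subgroups are centralized by `A`
  have hmin : ∀ D : Subgroup Γ, D ≤ C → D ≠ C → (∀ x ∈ X, ∀ d ∈ D, x * d * x⁻¹ ∈ D) →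
      ∀ d ∈ D, ∀ a ∈ A, a * d = d * a := by
    intro D hDC hne hD
    have hlt : Nat.card D < Nat.card C := by
      refine lt_of_le_of_ne (Nat.card_le_card_of_injective _ (inclusion_injective hDC)) ?_
      intro h
      exact hne (Subgroup.eq_of_le_of_card_ge hDC h.ge)
    exact ih _ hlt D (hC.to_le hDC) hD rfl
  set M : Subgroup Γ := C ⊓ centralizer (A : Set Γ) with hMdef
  have hMC : M ≤ C := inf_le_left
  have hMA : ∀ m ∈ M, ∀ a ∈ A, a * m = m * a := by
    intro m hm a ha
    exact (mem_centralizer_iff.mp hm.2 a ha)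
  have hMof : ∀ m ∈ C, (∀ a ∈ A, a * m = m * a) → m ∈ M := by
    intro m hm h
    exact ⟨hm, mem_centralizer_iff.mpr h⟩
  have hleM : ∀ D : Subgroup Γ, D ≤ C → D ≠ C → (∀ x ∈ X, ∀ d ∈ D, x * d * x⁻¹ ∈ D) → D ≤ M :=
    fun D h1 h2 h3 d hd => hMof d (h1 hd) (hmin D h1 h2 h3 d hd)
  have hMne : M ≠ C := by
    intro h
    apply hcon
    intro c hc a ha
    rw [← h] at hc
    exact hMA c hc a ha
  have hMX : ∀ x ∈ X, ∀ m ∈ M, x * m * x⁻¹ ∈ M := by
    intro x hx m hm
    refine hMof _ (hXC x hx m (hMC hm)) ?_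
    intro a ha
    have h1 := hMA m hm (x⁻¹ * a * x⁻¹⁻¹) (hAconj x⁻¹ (inv_mem hx) a ha)
    calc a * (x * m * x⁻¹) = x * ((x⁻¹ * a * x⁻¹⁻¹) * m) * x⁻¹ := by group
      _ = x * (m * (x⁻¹ * a * x⁻¹⁻¹)) * x⁻¹ := by rw [h1]
      _ = x * m * x⁻¹ * a := by group
  -- the Frattini subgroup
  have hXn : X ≤ normalizer (C : Set Γ) := le_normalizer_of_conj hXC
  have hFM : (frattini C).map C.subtype ≤ M := by
    apply hleM
    · exact map_subtype_le _
    · intro h
      have h1 : frattini C = ⊤ := by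
        apply map_injective C.subtype_injective
        rw [h, ← MonoidHom.range_eq_map, range_subtype]
      have h2 : (⊥ : Subgroup C) = ⊤ := by
        apply frattini_nongenerating
        rw [h1]; simp
      apply hcon
      intro c hc a _
      have h3' : (⟨c, hc⟩ : C) ∈ (⊥ : Subgroup C) := by rw [h2]; exact mem_top _
      have h4 : c = 1 := congrArg Subtype.val (mem_bot.mp h3')
      rw [h4]; simp
    · exact conj_of_le_normalizer (hXn.trans
        (OddOrderLocal.FittingHall.normalizer_le_normalizer_map _ _ frattini_characteristic))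
  have hsqM : ∀ c ∈ C, c * c ∈ M := by
    intro c hc
    apply hFM
    refine ⟨⟨c, hc⟩ ^ 2, Lib.FrattiniPGroup.pow_mem_frattini hC _, ?_⟩
    simp [pow_two]
  have hcommM : ∀ c ∈ C, ∀ d ∈ C, c * d * c⁻¹ * d⁻¹ ∈ M := by
    intro c hc d hd
    apply hFM
    refine ⟨⁅(⟨c, hc⟩ : C), ⟨d, hd⟩⁆, Lib.FrattiniPGroup.commutator_mem_frattini hC _ _, ?_⟩
    simp [commutatorElement_def]
  -- `C = [C, A]`
  have hCA : ⁅C, A⁆ = C := by
    by_contra hne
    have hle : ⁅C, A⁆ ≤ C := by
      rw [commutator_le]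
      intro c hc a ha
      have h1 := hXC a (hAX ha) c⁻¹ (inv_mem hc)
      rw [commutatorElement_def]
      have h2 : c * a * c⁻¹ * a⁻¹ = c * (a * c⁻¹ * a⁻¹) := by group
      rw [h2]
      exact mul_mem hc h1
    have hD : ⁅C, A⁆ ≤ M := by
      apply hleM _ hle hne
      intro x hx d hd
      have h1 : (⁅C, A⁆).map (MulAut.conj x).toMonoidHom ≤ ⁅C, A⁆ := by
        rw [map_commutator]
        apply commutator_mono
        · rintro _ ⟨y, hy, rfl⟩
          exact hXC x hx y hy
        · rintro _ ⟨y, hy, rfl⟩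
          exact hAconj x hx y hy
      exact h1 ⟨d, hd, rfl⟩
    apply hcon
    intro c hc a ha
    have h1 : ⁅c, a⁆ ∈ M := hD (commutator_mem_commutator hc ha)
    have h2 : (a * c * a⁻¹ * c⁻¹) ∈ M := by
      have : a * c * a⁻¹ * c⁻¹ = ⁅c, a⁆⁻¹ := by rw [commutatorElement_def]; group
      rw [this]; exact inv_mem h1
    obtain ⟨k, hk⟩ := hC2 _ (hMC h2)
    exact commute_of_cube (ha3 a ha) (hMA _ h2 a ha) hk
  -- `M` is central in `C`
  have hMcen : ∀ m ∈ M, ∀ c ∈ C, c * m = m * c := by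
    have h1 : ⁅⁅C, A⁆, M⁆ = ⊥ := by
      apply commutator_commutator_eq_bot_of_rotate
      · have h2 : ⁅A, M⁆ = ⊥ := by
          rw [commutator_eq_bot_iff_le_centralizer]
          intro a ha
          rw [mem_centralizer_iff]
          intro m hm
          exact (hMA m hm a ha).symm
        rw [h2, commutator_bot_left]
      · have h2 : ⁅M, C⁆ ≤ M := by
          rw [commutator_le]
          intro m hm c hc
          rw [commutatorElement_def]
          exact hcommM m (hMC hm) c hc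
        rw [commutator_eq_bot_iff_le_centralizer]
        intro m hm
        rw [mem_centralizer_iff]
        intro a ha
        exact hMA m (h2 hm) a ha
    rw [hCA, commutator_eq_bot_iff_le_centralizer] at h1
    intro m hm c hc
    exact (mem_centralizer_iff.mp (h1 hc) m hm).symm
  -- the commutator subgroup `T` of `C`
  set T : Subgroup Γ := ⁅C, C⁆ with hTdef
  have hTC : T ≤ C := commutator_le_self C
  have hTM : T ≤ M := by
    rw [hTdef, commutator_le]
    intro c hc d hd
    rw [commutatorElement_def]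
    exact hcommM c hc d hd
  let E : Subgroup Γ :=
    { carrier := {m | m ∈ M ∧ m * m = 1}
      mul_mem' := by
        rintro x y ⟨hx, hx2⟩ ⟨hy, hy2⟩
        refine ⟨mul_mem hx hy, ?_⟩
        have h1 : y * x = x * y := hMcen x hx y (hMC hy)
        calc x * y * (x * y) = x * (y * x) * y := by group
          _ = x * (x * y) * y := by rw [h1]
          _ = (x * x) * (y * y) := by group
          _ = 1 := by rw [hx2, hy2, one_mul]
      one_mem' := ⟨one_mem _, one_mul 1⟩
      inv_mem' := by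
        rintro x ⟨hx, hx2⟩
        refine ⟨inv_mem hx, ?_⟩
        rw [← mul_inv_rev, hx2, inv_one] }
  have hTE : T ≤ E := by
    rw [hTdef, commutator_le]
    intro c hc d hd
    rw [commutatorElement_def]
    refine ⟨hcommM c hc d hd, ?_⟩
    set z := c * d * c⁻¹ * d⁻¹ with hz
    have hzM : z ∈ M := hcommM c hc d hd
    have h1 : c * d * c⁻¹ = z * d := by rw [hz]; group
    have h2 : (c * c) * d * (c * c)⁻¹ = z * z * d := by
      calc (c * c) * d * (c * c)⁻¹ = c * (c * d * c⁻¹) * c⁻¹ := by group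
        _ = c * (z * d) * c⁻¹ := by rw [h1]
        _ = (c * z) * d * c⁻¹ := by group
        _ = (z * c) * d * c⁻¹ := by rw [hMcen z hzM c hc]
        _ = z * (c * d * c⁻¹) := by group
        _ = z * (z * d) := by rw [h1]
        _ = z * z * d := by group
    have h3 : (c * c) * d * (c * c)⁻¹ = d := by
      rw [← hMcen (c * c) (hsqM c hc) d hd]; group
    rw [h3] at h2
    exact (mul_eq_right.mp h2.symm)
  have hT2 : ∀ t ∈ T, t * t = 1 := fun t ht => (hTE ht).2
  have hTX : ∀ x ∈ X, ∀ t ∈ T, x * t * x⁻¹ ∈ T := by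
    intro x hx t ht
    have h1 : T.map (MulAut.conj x).toMonoidHom ≤ T := by
      rw [hTdef, map_commutator]
      apply commutator_mono <;>
      · rintro _ ⟨y, hy, rfl⟩
        exact hXC x hx y hy
    exact h1 ⟨t, ht, rfl⟩
  -- `T` is not trivial
  have hTne : ∃ t ∈ T, t ≠ 1 := by
    by_contra hno
    push Not at hno
    apply hcon
    intro c hc a ha
    obtain ⟨k, hk⟩ := hC2 c hc
    have h1 := smul_eq_of_commute h3 (⊤ : AddSubgroup W) (ha3 a ha) (fun _ _ => AddSubgroup.mem_top _)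
      (fun _ _ => AddSubgroup.mem_top _) (fun m _ => hq a ha m) (c := c) (by
        intro m _
        rw [← mul_smul, ← mul_smul]
        congr 1
        have h2 := hno _ (commutator_mem_commutator hc (hXC a (hAX ha) c hc))
        rw [commutatorElement_eq_one_iff_mul_comm] at h2
        exact h2) hk
    have h2 : c = a * c * a⁻¹ := by
      apply FaithfulSMul.eq_of_smul_eq_smul (α := W)
      intro w
      exact h1 w (AddSubgroup.mem_top _)
    calc a * c = (a * c * a⁻¹) * a := by group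
      _ = c * a := by rw [← h2]
  -- choice of `U`
  let P : Subgroup Γ → Prop := fun U => U ≤ T ∧ ∃ w : W, (∀ u ∈ U, u • w = w) ∧ ∃ t ∈ T, t • w ≠ w
  have hPne : {U | P U}.Nonempty := by
    obtain ⟨t, ht, ht1⟩ := hTne
    refine ⟨⊥, bot_le, ?_⟩
    by_contra hno
    push Not at hno
    apply ht1
    apply FaithfulSMul.eq_of_smul_eq_smul (α := W)
    intro w
    rw [one_smul]
    exact hno w (fun u hu => by rw [mem_bot.mp hu, one_smul]) t ht
  obtain ⟨U, hU⟩ := (Set.toFinite {U | P U}).exists_maximal hPne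
  obtain ⟨hUT, w0, hw0, t0, ht0, ht0w⟩ := hU.1
  have hTcomm : ∀ s ∈ T, ∀ t ∈ T, s * t = t * s := fun s hs t ht =>
    hMcen t (hTM ht) s (hTC hs)
  -- the weight space
  let L : AddSubgroup W :=
    { carrier := {w | (∀ u ∈ U, u • w = w) ∧ ∀ t ∈ T, t ∉ U → t • w = -w}
      zero_mem' := ⟨fun u _ => smul_zero u, fun t _ _ => by rw [smul_zero, neg_zero]⟩
      add_mem' := by
        rintro x y ⟨h1, h2⟩ ⟨h3, h4⟩
        refine ⟨fun u hu => by rw [smul_add, h1 u hu, h3 u hu], fun t ht htU => ?_⟩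
        rw [smul_add, h2 t ht htU, h4 t ht htU]; abel
      neg_mem' := by
        rintro x ⟨h1, h2⟩
        refine ⟨fun u hu => by rw [smul_neg, h1 u hu], fun t ht htU => ?_⟩
        rw [smul_neg, h2 t ht htU] }
  have hL1 : ∀ w ∈ L, ∀ u ∈ U, u • w = w := fun w hw => hw.1
  have hL2 : ∀ w ∈ L, ∀ t ∈ T, t ∉ U → t • w = -w := fun w hw => hw.2
  obtain ⟨w1, hw1L, hw1ne⟩ : ∃ w1 ∈ L, w1 ≠ 0 := by
    refine ⟨w0 - t0 • w0, ⟨?_, ?_⟩, ?_⟩
    · intro u hu
      rw [smul_sub, hw0 u hu, ← mul_smul, hTcomm u (hUT hu) t0 ht0, mul_smul, hw0 u hu]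
    · intro t ht htU
      set w' := w0 - t0 • w0 with hw'
      have ht0w' : t0 • w' = -w' := by
        rw [hw', smul_sub, ← mul_smul, hT2 t0 ht0, one_smul]; abel
      have hUw' : ∀ u ∈ U, u • w' = w' := by
        intro u hu
        rw [hw', smul_sub, hw0 u hu, ← mul_smul, hTcomm u (hUT hu) t0 ht0, mul_smul, hw0 u hu]
      -- `w' + t w'` is fixed by `U` and `t`
      have h5 : ∀ s ∈ T, s • (w' + t • w') = w' + t • w' := by
        by_contra hno
        push Not at hno
        have h6 : P (U ⊔ zpowers t) := by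
          refine ⟨sup_le hUT (by rw [zpowers_le]; exact ht), w' + t • w', ?_, hno⟩
          intro u hu
          have h7 : U ⊔ zpowers t ≤ MulAction.stabilizer Γ (w' + t • w') := by
            refine sup_le ?_ ?_
            · intro u hu
              rw [MulAction.mem_stabilizer_iff, smul_add, hUw' u hu, ← mul_smul,
                hTcomm u (hUT hu) t ht, mul_smul, hUw' u hu]
            · rw [zpowers_le, MulAction.mem_stabilizer_iff, smul_add, ← mul_smul, hT2 t ht,
                one_smul, add_comm]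
          exact h7 hu
        have h7 : U ⊔ zpowers t ≤ U := hU.2 h6 le_sup_left
        exact htU (h7 (mem_sup_right (mem_zpowers t)))
      have h6 := h5 t0 ht0
      rw [smul_add, ← mul_smul, hTcomm t0 ht0 t ht, mul_smul, ht0w', smul_neg] at h6
      have h7 : w' + t • w' = 0 := by
        apply eq_zero_of_eq_neg h3
        rw [neg_add]
        exact h6.symm
      exact (neg_eq_of_add_eq_zero_right h7).symm
    · intro h
      exact ht0w (sub_eq_zero.mp h).symm
  -- an element of `T` outside `U`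
  have hex : ∃ t ∈ T, t ∉ U := by
    by_contra hno
    push Not at hno
    exact ht0w (hw0 t0 (hno t0 ht0))
  -- products of elements of `T ∖ U`
  have hmulU : ∀ s ∈ T, ∀ t ∈ T, s ∉ U → t ∉ U → s * t ∈ U := by
    intro s hs t ht hsU htU
    by_contra hno
    have h1 := hL2 w1 hw1L (s * t) (mul_mem hs ht) hno
    rw [mul_smul, hL2 w1 hw1L t ht htU, smul_neg, hL2 w1 hw1L s hs hsU, neg_neg] at h1
    exact hw1ne (eq_zero_of_eq_neg h3 h1)
  -- elements commuting with `T` preserve `L`
  have hLinv : ∀ g : Γ, (∀ t ∈ T, t * g = g * t) → ∀ w ∈ L, g • w ∈ L := by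
    intro g hg w hw
    refine ⟨fun u hu => ?_, fun t ht htU => ?_⟩
    · rw [← mul_smul, hg u (hUT hu), mul_smul, hL1 w hw u hu]
    · rw [← mul_smul, hg t ht, mul_smul, hL2 w hw t ht htU, smul_neg]
  have hLC : ∀ c ∈ C, ∀ w ∈ L, c • w ∈ L := fun c hc =>
    hLinv c (fun t ht => (hMcen t (hTM ht) c hc).symm)
  have hLA : ∀ a ∈ A, ∀ w ∈ L, a • w ∈ L := fun a ha =>
    hLinv a (fun t ht => (hMA t (hTM ht) a ha).symm)
  -- the subgroup of elements fixing `L` pointwise
  let K : Subgroup Γ :=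
    { carrier := {g | ∀ w ∈ L, g • w = w}
      mul_mem' := by
        intro x y hx hy w hw
        rw [mul_smul, hy w hw, hx w hw]
      one_mem' := fun w _ => one_smul _ w
      inv_mem' := by
        intro x hx w hw
        nth_rewrite 1 [← hx w hw]
        rw [inv_smul_smul] }
  have hK : ∀ g ∈ K, ∀ w ∈ L, g • w = w := fun g hg => hg
  have hTK : ¬ T ≤ K := by
    intro h
    obtain ⟨t, ht, htU⟩ := hex
    have h1 := hL2 w1 hw1L t ht htU
    rw [hK t (h ht) w1 hw1L] at h1
    exact hw1ne (eq_zero_of_eq_neg h3 h1)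
  -- `X` normalizes `U`
  have hUX : ∀ x ∈ X, ∀ u ∈ U, x * u * x⁻¹ ∈ U := by
    by_contra hno
    push Not at hno
    obtain ⟨x, hx, u1, hu1, hnot1⟩ := hno
    obtain ⟨u2, hu2, hnot2⟩ : ∃ u2 ∈ U, (x * x) * u2 * (x * x)⁻¹ ∉ U := by
      by_contra hno
      push Not at hno
      have h1 : ∀ n : ℕ, ∀ u ∈ U, (x * x) ^ n * u * ((x * x) ^ n)⁻¹ ∈ U := by
        intro n
        induction n with
        | zero => intro u hu; simpa using hu
        | succ n ihn =>
          intro u hu
          have h2 := hno _ (ihn u hu)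
          have h3 : (x * x) ^ (n + 1) * u * ((x * x) ^ (n + 1))⁻¹ =
              (x * x) * ((x * x) ^ n * u * ((x * x) ^ n)⁻¹) * (x * x)⁻¹ := by
            rw [pow_succ', mul_inv_rev]; simp only [mul_assoc]
          rw [h3]; exact h2
      obtain ⟨k, hk⟩ := hX ⟨x, hx⟩
      have hk' : x ^ (3 ^ k) = 1 := congrArg Subtype.val hk
      have hodd : Odd (3 ^ k) := Odd.pow (by decide)
      obtain ⟨i, hi⟩ := hodd
      have h2 : (x * x) ^ (i + 1) = x := by
        rw [← pow_two, ← pow_mul]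
        have : 2 * (i + 1) = 3 ^ k + 1 := by omega
        rw [this, pow_succ, hk', one_mul]
      have h3 := h1 (i + 1) u1 hu1
      rw [h2] at h3
      exact hnot1 h3
    have hx2 : x * x ∈ X := mul_mem hx hx
    set t1 := x * u1 * x⁻¹ with ht1
    set t2 := (x * x) * u2 * (x * x)⁻¹ with ht2
    have ht1T : t1 ∈ T := hTX x hx u1 (hUT hu1)
    have ht2T : t2 ∈ T := hTX (x * x) hx2 u2 (hUT hu2)
    -- `A` acts trivially on `L`
    have hAL : ∀ a ∈ A, ∀ v ∈ L, a • v = v := by
      intro a ha v hv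
      have hsum : (a • v - v) + (a • x • v - x • v) + (a • x • x • v - x • x • v) = 0 := by
        have h1 := hq2 a ha x hx v
        rw [smul_add, smul_add] at h1
        have h2 : (a • v - v) + (a • x • v - x • v) + (a • x • x • v - x • x • v) =
            (a • x • x • v + a • x • v + a • v) - (x • x • v + x • v + v) := by abel
        rw [h2, h1, sub_self]
      have hmove : ∀ t ∈ T, ∀ y : Γ, t • (a • y • v - y • v) =
          a • y • (y⁻¹ * t * y) • v - y • (y⁻¹ * t * y) • v := by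
        intro t ht y
        have e1 : t • y • v = y • (y⁻¹ * t * y) • v := by
          rw [← mul_smul, ← mul_smul]; congr 1; group
        rw [smul_sub, e1, ← mul_smul t a, ← hMA t (hTM ht) a ha, mul_smul, e1]
      have hsign : ∀ t ∈ T, ∀ y ∈ X, t • (a • y • v - y • v) = (a • y • v - y • v) ∨
          t • (a • y • v - y • v) = -(a • y • v - y • v) := by
        intro t ht y hy
        have ht' : y⁻¹ * t * y ∈ T := by
          have := hTX y⁻¹ (inv_mem hy) t ht
          rwa [inv_inv] at this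
        rw [hmove t ht y]
        by_cases hU' : y⁻¹ * t * y ∈ U
        · left; rw [hL1 v hv _ hU']
        · right; rw [hL2 v hv _ ht' hU', smul_neg, smul_neg]; abel
      have hplus1 : t1 • (a • x • v - x • v) = a • x • v - x • v := by
        have e1 : x⁻¹ * t1 * x = u1 := by rw [ht1]; group
        rw [hmove t1 ht1T x, e1, hL1 v hv u1 hu1]
      have hplus2 : t2 • (a • x • x • v - x • x • v) = a • x • x • v - x • x • v := by
        have e1 : (x * x)⁻¹ * t2 * (x * x) = u2 := by rw [ht2]; group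
        have e2 := hmove t2 ht2T (x * x)
        rw [e1, hL1 v hv u2 hu2] at e2
        simpa only [mul_smul] using e2
      have hv0 : a • v - v ∈ L := sub_mem (hLA a ha v hv) hv
      have hm1 : t1 • (a • v - v) = -(a • v - v) := hL2 _ hv0 t1 ht1T hnot1
      have hm2 : t2 • (a • v - v) = -(a • v - v) := hL2 _ hv0 t2 ht2T hnot2
      have hs2 := hsign t1 ht1T (x * x) hx2
      simp only [mul_smul] at hs2
      set p0 := a • v - v with hp0
      set p1 := a • x • v - x • v with hp1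
      set p2 := a • x • x • v - x • x • v with hp2
      have hp : p0 = 0 := by
        have h1 : t1 • (p0 + p1 + p2) = 0 := by rw [hsum, smul_zero]
        rw [smul_add, smul_add, hm1, hplus1] at h1
        rcases hs2 with h2 | h2
        · rw [h2] at h1
          apply eq_zero_of_two h3
          have : p0 + p0 = (p0 + p1 + p2) - (-p0 + p1 + p2) := by abel
          rw [this, hsum, h1, sub_zero]
        · rw [h2] at h1
          have h4 : p1 = 0 := by
            apply eq_zero_of_two h3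
            have : p1 + p1 = (p0 + p1 + p2) + (-p0 + p1 + -p2) := by abel
            rw [this, hsum, h1, add_zero]
          rw [h4, add_zero] at hsum
          have h5 : p0 = -p2 := eq_neg_of_add_eq_zero_left hsum
          apply eq_zero_of_eq_neg h3
          have h6 := hm2
          rw [h5, smul_neg, hplus2, ← h5] at h6
          exact h6
      exact sub_eq_zero.mp hp
    -- hence `C = [C, A]` acts trivially on `L`
    have hCK : C ≤ K := by
      rw [← hCA, commutator_le]
      intro c hc a ha w hw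
      rw [commutatorElement_def, mul_smul, mul_smul, mul_smul, hAL a⁻¹ (inv_mem ha) w hw,
        hAL a ha _ (hLC c⁻¹ (inv_mem hc) w hw), smul_inv_smul]
    exact hTK (hTC.trans hCK)
  have hLX : ∀ x ∈ X, ∀ w ∈ L, x • w ∈ L := by
    intro x hx w hw
    have e1 : ∀ t : Γ, t • x • w = x • (x⁻¹ * t * x) • w := by
      intro t
      rw [← mul_smul, ← mul_smul]; congr 1; group
    refine ⟨fun u hu => ?_, fun t ht htU => ?_⟩
    · have := hUX x⁻¹ (inv_mem hx) u hu
      rw [inv_inv] at this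
      rw [e1, hL1 w hw _ this]
    · have h1 := hTX x⁻¹ (inv_mem hx) t ht
      rw [inv_inv] at h1
      have h2 : x⁻¹ * t * x ∉ U := by
        intro h
        have h4 := hUX x hx _ h
        have h5 : x * (x⁻¹ * t * x) * x⁻¹ = t := by group
        rw [h5] at h4
        exact htU h4
      rw [e1, hL2 w hw _ h1 h2, smul_neg]
  -- elements of `C` acting on `L` as elements of `M`
  have hKM : ∀ c ∈ C, (∃ m ∈ M, ∀ w ∈ L, c • w = m • w) → c ∈ M := by
    let D : Subgroup Γ :=
      { carrier := {c | c ∈ C ∧ ∃ m ∈ M, ∀ w ∈ L, c • w = m • w}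
        mul_mem' := by
          rintro x y ⟨hx, m, hm, h1⟩ ⟨hy, m', hm', h2⟩
          refine ⟨mul_mem hx hy, m * m', mul_mem hm hm', ?_⟩
          intro w hw
          rw [mul_smul, h2 w hw, h1 _ (hLC m' (hMC hm') w hw), ← mul_smul]
        one_mem' := ⟨one_mem _, 1, one_mem _, fun w _ => rfl⟩
        inv_mem' := by
          rintro x ⟨hx, m, hm, h1⟩
          refine ⟨inv_mem hx, m⁻¹, inv_mem hm, ?_⟩
          intro w hw
          have h2 := h1 (m⁻¹ • w) (hLC m⁻¹ (inv_mem (hMC hm)) w hw)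
          rw [smul_inv_smul] at h2
          rw [inv_smul_eq_iff, h2] }
    have hDM : D ≤ M := by
      apply hleM
      · exact fun c hc => hc.1
      · intro hDC
        apply hTK
        rw [hTdef, commutator_le]
        intro c hc d hd w hw
        rw [← hDC] at hc hd
        obtain ⟨hc', m, hm, h1⟩ := hc
        obtain ⟨hd', m', hm', h2⟩ := hd
        have hmm : m * m' = m' * m := hMcen m' hm' m (hMC hm)
        have e1 : ∀ w ∈ L, c • d • w = m • m' • w := by
          intro w hw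
          rw [h2 w hw, h1 _ (hLC m' (hMC hm') w hw)]
        have e2 : ∀ w ∈ L, d • c • w = m' • m • w := by
          intro w hw
          rw [h1 w hw, h2 _ (hLC m (hMC hm) w hw)]
        have e3 : ∀ w ∈ L, c • d • w = d • c • w := by
          intro w hw
          rw [e1 w hw, e2 w hw, ← mul_smul, ← mul_smul, hmm]
        have e4 : d • c • c⁻¹ • d⁻¹ • w = w := by rw [smul_inv_smul, smul_inv_smul]
        rw [commutatorElement_def, mul_smul, mul_smul, mul_smul,
          e3 _ (hLC _ (inv_mem hc') _ (hLC _ (inv_mem hd') w hw)), e4]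
      · rintro x hx d ⟨hd, m, hm, h1⟩
        refine ⟨hXC x hx d hd, x * m * x⁻¹, hMX x hx m hm, ?_⟩
        intro w hw
        rw [mul_smul, mul_smul, mul_smul, mul_smul, h1 _ (hLX x⁻¹ (inv_mem hx) w hw)]
    intro c hc h
    exact hDM ⟨hc, h⟩
  -- the quotient `C / M`
  obtain ⟨Q, iQ, iX, π, hπs, hπm, hπe, hπx⟩ := exists_quot C M X
    (fun c hc m hm => by rw [hMcen m hm c hc]; simpa using hm) hcommM hXC hMX
  have hQfin : Finite Q := Finite.of_surjective π hπs
  have hπ1 : π 1 = 0 := by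
    have := hπm 1 1
    rw [mul_one] at this
    exact left_eq_add.mp this
  have hπinv : ∀ c, π c⁻¹ = -π c := by
    intro c
    have := hπm c⁻¹ c
    rw [inv_mul_cancel, hπ1] at this
    exact eq_neg_of_add_eq_zero_left this.symm
  -- the form
  let χ : Γ → ZMod 2 := fun t => if t ∈ U then 0 else 1
  have hχ0 : ∀ t, t ∈ U → χ t = 0 := fun t ht => if_pos ht
  have hχ1 : ∀ t, t ∉ U → χ t = 1 := fun t ht => if_neg ht
  have hχmul : ∀ s ∈ T, ∀ t ∈ T, χ (s * t) = χ s + χ t := by
    intro s hs t ht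
    by_cases h1 : s ∈ U
    · by_cases h2 : t ∈ U
      · rw [hχ0 s h1, hχ0 t h2, hχ0 _ (mul_mem h1 h2), add_zero]
      · rw [hχ0 s h1, hχ1 t h2, hχ1, zero_add]
        intro h
        apply h2
        have := mul_mem (inv_mem h1) h
        rwa [inv_mul_cancel_left] at this
    · by_cases h2 : t ∈ U
      · rw [hχ1 s h1, hχ0 t h2, hχ1, add_zero]
        intro h
        apply h1
        have := mul_mem h (inv_mem h2)
        rwa [mul_inv_cancel_right] at this
      · rw [hχ1 s h1, hχ1 t h2, hχ0 _ (hmulU s hs t ht h1 h2)]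
        decide
  let F : Γ → Γ → ZMod 2 := fun c d => χ (c * d * c⁻¹ * d⁻¹)
  have hF : ∀ c d, F c d = χ (c * d * c⁻¹ * d⁻¹) := fun c d => rfl
  have hcT : ∀ c ∈ C, ∀ d ∈ C, c * d * c⁻¹ * d⁻¹ ∈ T := by
    intro c hc d hd
    rw [← commutatorElement_def]
    exact commutator_mem_commutator hc hd
  have hFl : ∀ c ∈ C, ∀ c' ∈ C, ∀ d ∈ C, F (c * c') d = F c d + F c' d := by
    intro c hc c' hc' d hd
    have hz := hcT c' hc' d hd
    have e1 : c * c' * d * (c * c')⁻¹ * d⁻¹ =
        (c' * d * c'⁻¹ * d⁻¹) * (c * d * c⁻¹ * d⁻¹) := by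
      calc c * c' * d * (c * c')⁻¹ * d⁻¹ = (c * (c' * d * c'⁻¹ * d⁻¹)) * (d * c⁻¹ * d⁻¹) := by group
        _ = ((c' * d * c'⁻¹ * d⁻¹) * c) * (d * c⁻¹ * d⁻¹) := by
            rw [hMcen _ (hTM hz) c hc]
        _ = (c' * d * c'⁻¹ * d⁻¹) * (c * d * c⁻¹ * d⁻¹) := by group
    rw [hF, e1, hχmul _ hz _ (hcT c hc d hd), add_comm]
  have hFsymm : ∀ c ∈ C, ∀ d ∈ C, F c d = F d c := by
    intro c hc d hd
    have e1 : (c * d * c⁻¹ * d⁻¹) * (d * c * d⁻¹ * c⁻¹) = 1 := by group
    have e2 := hχmul _ (hcT c hc d hd) _ (hcT d hd c hc)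
    rw [e1, hχ0 1 (one_mem _)] at e2
    have e3 : F c d + F d c = 0 := e2.symm
    have e4 : ∀ a b : ZMod 2, a + b = 0 → a = b := by decide
    exact e4 _ _ e3
  have hFr : ∀ c ∈ C, ∀ d ∈ C, ∀ d' ∈ C, F c (d * d') = F c d + F c d' := by
    intro c hc d hd d' hd'
    rw [hFsymm c hc _ (mul_mem hd hd'), hFl d hd d' hd' c hc, hFsymm d hd c hc, hFsymm d' hd' c hc]
  have hFM1 : ∀ c ∈ C, ∀ m ∈ M, F c m = 0 := by
    intro c hc m hm
    have : c * m * c⁻¹ * m⁻¹ = 1 := by rw [hMcen m hm c hc]; group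
    rw [hF, this]
    exact hχ0 1 (one_mem _)
  have hFself : ∀ c, F c c = 0 := by
    intro c
    have : c * c * c⁻¹ * c⁻¹ = 1 := by group
    rw [hF, this]
    exact hχ0 1 (one_mem _)
  have hFinv : ∀ c ∈ C, ∀ d ∈ C, F c d⁻¹ = F c d := by
    intro c hc d hd
    have h1 := hFr c hc d⁻¹ (inv_mem hd) d hd
    rw [inv_mul_cancel, hFM1 c hc 1 (one_mem _)] at h1
    have e4 : ∀ a b : ZMod 2, 0 = a + b → a = b := by decide
    exact e4 _ _ h1
  have hFa : ∀ a ∈ A, ∀ c ∈ C, ∀ d ∈ C, F (a * c * a⁻¹) (a * d * a⁻¹) = F c d := by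
    intro a ha c hc d hd
    have hz := hcT c hc d hd
    have e1 : (a * c * a⁻¹) * (a * d * a⁻¹) * (a * c * a⁻¹)⁻¹ * (a * d * a⁻¹)⁻¹ =
        c * d * c⁻¹ * d⁻¹ := by
      calc (a * c * a⁻¹) * (a * d * a⁻¹) * (a * c * a⁻¹)⁻¹ * (a * d * a⁻¹)⁻¹ =
          (a * (c * d * c⁻¹ * d⁻¹)) * a⁻¹ := by group
        _ = ((c * d * c⁻¹ * d⁻¹) * a) * a⁻¹ := by rw [hMA _ (hTM hz) a ha]
        _ = c * d * c⁻¹ * d⁻¹ := by group
    rw [hF, e1]
  let sv : Q → C := Function.surjInv hπs
  have hsv : ∀ q, π (sv q) = q := Function.surjInv_eq hπs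
  let f : Q → Q → ZMod 2 := fun p q => F (sv p : Γ) (sv q : Γ)
  have hFcongr : ∀ c c' d : C, π c = π c' → F (c : Γ) d = F (c' : Γ) d := by
    intro c c' d h
    have h1 := (hπe c c').mp h
    have h2 : (c' : Γ) = c * ((c : Γ)⁻¹ * c') := by group
    rw [h2, hFl c c.2 _ (hMC h1) d d.2, hFsymm _ (hMC h1) d d.2, hFM1 d d.2 _ h1, add_zero]
  have hf : ∀ c d : C, f (π c) (π d) = F (c : Γ) d := by
    intro c d
    show F (sv (π c) : Γ) (sv (π d) : Γ) = F (c : Γ) d
    rw [hFcongr _ c _ (hsv _), hFsymm c c.2 _ (sv (π d)).2, hFcongr _ d _ (hsv _),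
      hFsymm d d.2 c c.2]
  have key : ∀ a ∈ commutator X, ∀ q : Q, a • q = q := by
    have hAmem : ∀ a ∈ commutator X, (a : Γ) ∈ A := by
      intro a ha
      rw [hAdef, ← map_subtype_commutator]
      exact ⟨a, ha, rfl⟩
    have hQ2 : ∀ q : Q, q + q = 0 := by
      intro q
      obtain ⟨c, rfl⟩ := hπs q
      rw [← hπm, ← hπ1, hπe]
      have := inv_mem (hsqM c c.2)
      simpa using this
    refine QuadForm.smul_eq_of_form f hQ2 hX ?_ ?_ ?_ ?_ ?_
    · intro a ha b hb
      exact Subtype.ext (hcomm a (hAmem a ha) b (hAmem b hb))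
    · intro a ha q
      rw [← mul_smul, ← mul_smul]
      have : a * a * a = 1 := Subtype.ext (ha3 a (hAmem a ha))
      rw [this, one_smul]
    · intro x y z
      obtain ⟨x, rfl⟩ := hπs x
      obtain ⟨y, rfl⟩ := hπs y
      obtain ⟨z, rfl⟩ := hπs z
      rw [← hπm, hf, hf, hf]
      exact hFl x x.2 y y.2 z z.2
    · intro x y z
      obtain ⟨x, rfl⟩ := hπs x
      obtain ⟨y, rfl⟩ := hπs y
      obtain ⟨z, rfl⟩ := hπs z
      rw [← hπm, hf, hf, hf]
      exact hFr x x.2 y y.2 z z.2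
    · intro a ha x hx
      obtain ⟨d, rfl⟩ := hπs x
      have haA := hAmem a ha
      -- the three conjugates
      let e : C := ⟨a * d * (a : Γ)⁻¹, hXC a a.2 d d.2⟩
      let g : C := ⟨a * e * (a : Γ)⁻¹, hXC a a.2 e e.2⟩
      have hae : a • π d = π e := hπx a d e.2
      have hag : a • π e = π g := hπx a e g.2
      have hadg : (a : Γ) * g * (a : Γ)⁻¹ = d := by
        show (a : Γ) * ((a : Γ) * ((a : Γ) * d * (a : Γ)⁻¹) * (a : Γ)⁻¹) * (a : Γ)⁻¹ = d
        have : (a : Γ) * ((a : Γ) * ((a : Γ) * d * (a : Γ)⁻¹) * (a : Γ)⁻¹) * (a : Γ)⁻¹ =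
            ((a : Γ) * a * a) * d * ((a : Γ) * a * a)⁻¹ := by group
        rw [this, ha3 a haA]; simp
      have had : a • π g = π d := by
        have h1 := hπx a g (by rw [hadg]; exact d.2)
        rw [h1]
        congr 1
        exact Subtype.ext hadg
      rw [hae] at hx ⊢
      rw [hf]
      by_contra hne
      have hdU : (d : Γ) * e * (d : Γ)⁻¹ * (e : Γ)⁻¹ ∈ U := by
        by_contra h
        exact hne (hχ1 _ h)
      have hde : F (d : Γ) e = 0 := hχ0 _ hdU
      have heg : F (e : Γ) g = 0 := by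
        rw [← hde]
        exact hFa a haA d d.2 e e.2
      have hdg : F (d : Γ) g = 0 := by
        have h1 := hFa a haA d d.2 g g.2
        rw [hadg] at h1
        rw [← h1]
        have h2 : F (a * d * (a : Γ)⁻¹) d = F (e : Γ) d := rfl
        rw [h2, hFsymm e e.2 d d.2, hde]
      -- `c = d e⁻¹`
      set c : Γ := d * (e : Γ)⁻¹ with hc
      have hcC : c ∈ C := mul_mem d.2 (inv_mem e.2)
      have hb : (a : Γ) * c * (a : Γ)⁻¹ = e * (g : Γ)⁻¹ := by
        show (a : Γ) * (d * (e : Γ)⁻¹) * (a : Γ)⁻¹ =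
          ((a : Γ) * d * (a : Γ)⁻¹) * ((a : Γ) * e * (a : Γ)⁻¹)⁻¹
        group
      have hFcb : F c (e * (g : Γ)⁻¹) = 0 := by
        rw [hc, hFl d d.2 _ (inv_mem e.2) _ (mul_mem e.2 (inv_mem g.2)),
          hFr d d.2 e e.2 _ (inv_mem g.2), hFinv d d.2 g g.2, hde, hdg,
          hFsymm _ (inv_mem e.2) _ (mul_mem e.2 (inv_mem g.2)),
          hFinv _ (mul_mem e.2 (inv_mem g.2)) e e.2,
          hFl e e.2 _ (inv_mem g.2) e e.2, hFself, hFsymm _ (inv_mem g.2) e e.2,
          hFinv e e.2 g g.2, heg]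
        simp
      have hcbU : c * (e * (g : Γ)⁻¹) * c⁻¹ * (e * (g : Γ)⁻¹)⁻¹ ∈ U := by
        by_contra h
        have h1 : F c (e * (g : Γ)⁻¹) = 1 := hχ1 _ h
        rw [hFcb] at h1
        exact absurd h1 (by decide)
      obtain ⟨k, hk⟩ := hC2 c hcC
      have hbC : e * (g : Γ)⁻¹ ∈ C := mul_mem e.2 (inv_mem g.2)
      have h1 := smul_eq_of_commute h3 L (ha3 a haA) (hLA a haA) (hLC c hcC)
        (fun m _ => hq a haA m) (by
          intro m hm
          rw [hb]
          have e1 : c • (e * (g : Γ)⁻¹) • m =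
              (c * (e * (g : Γ)⁻¹) * c⁻¹ * (e * (g : Γ)⁻¹)⁻¹) • (e * (g : Γ)⁻¹) • c • m := by
            rw [← mul_smul, ← mul_smul, ← mul_smul]
            congr 1
            group
          rw [e1]
          exact hL1 _ (hLC _ hbC _ (hLC c hcC m hm)) _ hcbU) hk
      rw [hb] at h1
      -- `π c = π b`
      have h2 : c⁻¹ * (e * (g : Γ)⁻¹) ∈ M := by
        apply hKM _ (mul_mem (inv_mem hcC) hbC)
        refine ⟨1, one_mem _, ?_⟩
        intro w hw
        rw [mul_smul, ← h1 w hw, inv_smul_smul, one_smul]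
      have h4 : π (d * e⁻¹) = π (e * g⁻¹) := by
        rw [hπe]
        exact h2
      rw [hπm, hπm, hπinv, hπinv] at h4
      have h5 : a • (π d + -π e) = π d + -π e := by
        rw [smul_add, smul_neg, hae, hag]
        exact h4.symm
      have h6 : (π d + -π e) + a • (π d + -π e) + a • a • (π d + -π e) = 0 := by
        simp only [smul_add, smul_neg, hae, hag, had]
        abel
      have h7 := QuadForm.eq_zero_of_orbit hQ2 h5 h6
      apply hx
      rw [← sub_eq_add_neg] at h7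
      exact (sub_eq_zero.mp h7).symm
  -- conclusion
  apply hcon
  intro c hc a ha
  rw [hAdef, ← map_subtype_commutator] at ha
  obtain ⟨a', ha', rfl⟩ := ha
  have haA : (X.subtype a') ∈ A := by
    rw [hAdef, ← map_subtype_commutator]
    exact ⟨a', ha', rfl⟩
  have haC : (a' : Γ) * c * (a' : Γ)⁻¹ ∈ C := hXC a' a'.2 c hc
  have h1 := key a' ha' (π ⟨c, hc⟩)
  rw [hπx a' ⟨c, hc⟩ haC] at h1
  have h2 := (hπe _ _).mp h1.symm
  have h4 : c⁻¹ * ((a' : Γ) * c * (a' : Γ)⁻¹) ∈ M := h2
  have h5 : (a' : Γ) * c * (a' : Γ)⁻¹ * c⁻¹ = c⁻¹ * ((a' : Γ) * c * (a' : Γ)⁻¹) := by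
    have h6 := hMcen _ h4 c hc
    calc (a' : Γ) * c * (a' : Γ)⁻¹ * c⁻¹ = (c * (c⁻¹ * ((a' : Γ) * c * (a' : Γ)⁻¹))) * c⁻¹ := by group
      _ = ((c⁻¹ * ((a' : Γ) * c * (a' : Γ)⁻¹)) * c) * c⁻¹ := by rw [h6]
      _ = _ := by group
  have h6 : (a' : Γ) * c * (a' : Γ)⁻¹ * c⁻¹ ∈ M := by rw [h5]; exact h4
  obtain ⟨k, hk⟩ := hC2 _ (hMC h6)
  exact commute_of_cube (ha3 a' haA) (hMA _ h6 a' haA) hk

end

end Cfsg.Agent.H451.QuadThree
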