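import Mathlib
import Cfsg.Prelude.Def_Local
import Cfsg.Agent.Lib.Cores
import Cfsg.Agent.Lib.PSolvable
import Cfsg.Agent.Lib.FrattiniPGroup
import Cfsg.Agent.Lib.PGroupCoprimeAction
import Cfsg.Agent.PLocal.HallHigmanPrime
import Cfsg.Agent.PLocal.SectionFrattini
import Cfsg.Agent.H451.QuadThreeMain
import Cfsg.Agent.H451.QuadOdd

/-!
# The commutator subgroup of a normal subgroup of a Sylow `3`-subgroup, if abelian, lies in `O_{3',3}`
-/

set_option autoImplicit false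
set_option linter.style.haveILetI false

namespace Cfsg.Agent.H451.DerivedCore

open Subgroup
open scoped commutatorElement
open Cfsg (pCore pPrimeCore IsPSolvable sectionKernel)
open Cfsg.Agent.Lib.Cores (le_pCore pCore_isPGroup pPrimeCore_coprime)

universe u

instance fact_prime_three : Fact (Nat.Prime 3) := ⟨by norm_num⟩

/-- **Core statement, `p = 3`.** `G` is `3`-soluble with `O_{3'}(G) = 1`, `X` a `3`-subgroup normalized by
`O_3(G)`, `[X, X]` abelian: then `[X, X] ≤ O_3(G)`. -/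
theorem core_three {G : Type u} [Group G] [Finite G] (hG : IsPSolvable 3 G)
    (h1 : pPrimeCore 3 G = ⊥) (X : Subgroup G) (hX : IsPGroup 3 X)
    (hXn : ∀ q ∈ pCore 3 G, ∀ x ∈ X, q * x * q⁻¹ ∈ X)
    (hab : ∀ a ∈ ⁅X, X⁆, ∀ b ∈ ⁅X, X⁆, a * b = b * a) : ⁅X, X⁆ ≤ pCore 3 G := by
  classical
  set Q : Subgroup G := pCore 3 G with hQ
  haveI hQn : Q.Normal := Lib.Cores.pCore_normal 3
  have hQp : IsPGroup 3 Q := pCore_isPGroup 3
  have hQc : centralizer (Q : Set G) ≤ Q :=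
    Lib.PSolvable.centralizer_pCore_le_of_pSolvable 3 hG h1
  haveI : (frattini Q).Characteristic := frattini_characteristic
  set Φ : Subgroup G := (frattini Q).map Q.subtype with hΦ
  haveI hΦn : Φ.Normal := by rw [hΦ]; infer_instance
  have hΦQ : Φ ≤ Q := map_subtype_le _
  have hAX : ⁅X, X⁆ ≤ X := commutator_le_self X
  -- the module `W = Q / Φ(Q)`
  obtain ⟨W, iW, iA, π, hπs, hπm, hπe, hπx⟩ := QuadThree.exists_quot Q Φ (⊤ : Subgroup G)
    (fun c _ n hn => hΦn.conj_mem n hn c)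
    (by
      intro c hc d hd
      refine ⟨⁅(⟨c, hc⟩ : Q), ⟨d, hd⟩⁆, Lib.FrattiniPGroup.commutator_mem_frattini hQp _ _, ?_⟩
      simp [commutatorElement_def])
    (fun x _ c hc => hQn.conj_mem c hc x) (fun x _ n hn => hΦn.conj_mem n hn x)
  haveI hWfin : Finite W := Finite.of_surjective π hπs
  have hπ1 : π 1 = 0 := by
    have := hπm 1 1
    rw [mul_one] at this
    exact left_eq_add.mp this
  have h3 : ∀ w : W, w + w + w = 0 := by
    intro w
    obtain ⟨c, rfl⟩ := hπs w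
    rw [← hπm, ← hπm, ← hπ1, hπe]
    have : (c : G) ^ 3 ∈ Φ := ⟨c ^ 3, Lib.FrattiniPGroup.pow_mem_frattini hQp c, by simp⟩
    have h2 := inv_mem this
    have h4 : ((c * c * c : Q) : G)⁻¹ * ((1 : Q) : G) = ((c : G) ^ 3)⁻¹ := by
      push_cast
      rw [mul_one, pow_succ, pow_two]
    rw [h4]
    exact h2
  let θ : G →* Equiv.Perm W := (MulAction.toPermHom (⊤ : Subgroup G) W).comp
    (topEquiv (G := G)).symm.toMonoidHom
  have hθadd : ∀ (g : G) (v w : W), θ g (v + w) = θ g v + θ g w := fun g v w =>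
    smul_add (⟨g, mem_top g⟩ : (⊤ : Subgroup G)) v w
  have hθzero : ∀ g : G, θ g 0 = 0 := fun g => smul_zero (⟨g, mem_top g⟩ : (⊤ : Subgroup G))
  letI act : DistribMulAction θ.range W :=
    { toMulAction := inferInstance
      smul_zero := by
        rintro ⟨_, g, rfl⟩
        exact hθzero g
      smul_add := by
        rintro ⟨_, g, rfl⟩ v w
        exact hθadd g v w }
  haveI faithful : FaithfulSMul θ.range W :=
    ⟨fun {g h} hgh => Subtype.ext (Equiv.ext hgh)⟩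
  have hθ : ∀ (g : G) (c : Q), θ g (π c) = π ⟨g * c * g⁻¹, hQn.conj_mem c c.2 g⟩ := by
    intro g c
    exact hπx ⟨g, mem_top g⟩ c (hQn.conj_mem c c.2 g)
  let ψ : G →* θ.range := θ.rangeRestrict
  have hψs : Function.Surjective ψ := θ.rangeRestrict_surjective
  have hsm : ∀ (g : G) (w : W), ψ g • w = θ g w := fun g w => rfl
  have hψ : ∀ (g : G) (c : Q), ψ g • π c = π ⟨g * c * g⁻¹, hQn.conj_mem c c.2 g⟩ := hθ
  haveI : Finite θ.range := Finite.of_surjective ψ hψs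
  -- the kernel
  have hker : ψ.ker = Q := by
    have hkerθ : ∀ g, g ∈ ψ.ker ↔ g ∈ sectionKernel Q Φ := by
      intro g
      rw [PLocal.SectionFrattini.mem_sectionKernel]
      constructor
      · intro hg k hk
        have h2 : π ⟨g * k * g⁻¹, hQn.conj_mem k hk g⟩ = π ⟨k, hk⟩ := by
          rw [← hψ g ⟨k, hk⟩, MonoidHom.mem_ker.mp hg, one_smul]
        rw [hπe] at h2
        have h4 : (g * k * g⁻¹)⁻¹ * k ∈ Φ := h2
        have h5 : k * ((g * k * g⁻¹)⁻¹ * k) * k⁻¹ ∈ Φ := hΦn.conj_mem _ h4 k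
        have h6 : ⁅k, g⁆ = k * ((g * k * g⁻¹)⁻¹ * k) * k⁻¹ := by
          rw [commutatorElement_def]; group
        rw [h6]; exact h5
      · intro hg
        rw [MonoidHom.mem_ker]
        apply FaithfulSMul.eq_of_smul_eq_smul (α := W)
        intro w
        obtain ⟨c, rfl⟩ := hπs w
        rw [hψ, one_smul, hπe]
        show (g * c * g⁻¹)⁻¹ * (c : G) ∈ Φ
        have h2 := hg c c.2
        have h4 : (c : G)⁻¹ * ⁅(c : G), g⁆ * ((c : G)⁻¹)⁻¹ ∈ Φ := hΦn.conj_mem _ h2 (c : G)⁻¹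
        have h5 : (g * c * g⁻¹)⁻¹ * (c : G) = (c : G)⁻¹ * ⁅(c : G), g⁆ * ((c : G)⁻¹)⁻¹ := by
          rw [commutatorElement_def]; group
        rw [h5]; exact h4
    apply le_antisymm
    · apply le_pCore inferInstance
      have h2 : ψ.ker ≤ sectionKernel Q Φ := fun g hg => (hkerθ g).mp hg
      exact (PLocal.SectionFrattini.isPGroup_sectionKernel_frattini Q hQp hQc).to_le h2
    · intro g hg
      rw [hkerθ, PLocal.SectionFrattini.mem_sectionKernel]
      intro k hk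
      refine ⟨⁅(⟨k, hk⟩ : Q), ⟨g, hg⟩⁆, Lib.FrattiniPGroup.commutator_mem_frattini hQp _ _, ?_⟩
      simp [commutatorElement_def]
  -- the structure of the image
  have hcore : pCore 3 θ.range = ⊥ := by
    have h2 : (pCore 3 θ.range).comap ψ ≤ Q := by
      haveI : (pCore 3 θ.range).Normal := Lib.Cores.pCore_normal 3
      apply le_pCore inferInstance
      have hkp : IsPGroup 3 ψ.ker := by rw [hker]; exact hQp
      exact (pCore_isPGroup 3).comap_of_ker_isPGroup ψ hkp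
    rw [eq_bot_iff]
    intro x hx
    obtain ⟨g, rfl⟩ := hψs x
    have h4 : g ∈ ψ.ker := by rw [hker]; exact h2 hx
    exact mem_bot.mpr (MonoidHom.mem_ker.mp h4)
  have hpsol : IsPSolvable 3 θ.range := Lib.PSolvable.IsPSolvable_of_surjective 3 hG ψ hψs
  set N : Subgroup θ.range := pPrimeCore 3 θ.range with hN
  haveI hNn : N.Normal := Lib.Cores.pPrimeCore_normal 3
  have hNc : centralizer (N : Set θ.range) ≤ N :=
    PLocal.HallHigmanPrime.centralizer_pPrimeCore_le_of_pSolvable 3 hpsol hcore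
  have hNcop : (Nat.card N).Coprime 3 := pPrimeCore_coprime 3
  have hN3 : ¬ 3 ∣ Nat.card N := fun h =>
    (Nat.Prime.coprime_iff_not_dvd (by norm_num)).mp hNcop.symm h
  -- the images of `X` and `A`
  set Y : Subgroup θ.range := X.map ψ with hY
  have hYp : IsPGroup 3 Y := hX.map ψ
  have hYY : ⁅Y, Y⁆ = (⁅X, X⁆).map ψ := by rw [hY, map_commutator]
  have hcommY : ∀ a ∈ ⁅Y, Y⁆, ∀ b ∈ ⁅Y, Y⁆, a * b = b * a := by
    rw [hYY]
    rintro _ ⟨a, ha, rfl⟩ _ ⟨b, hb, rfl⟩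
    rw [← map_mul, hab a ha b hb, map_mul]
  -- commutators with elements of `Q`
  have hAn : ∀ q ∈ Q, ∀ a ∈ ⁅X, X⁆, q * a * q⁻¹ ∈ ⁅X, X⁆ := by
    intro q hq a ha
    have h2 : (⁅X, X⁆).map (MulAut.conj q).toMonoidHom ≤ ⁅X, X⁆ := by
      rw [map_commutator]
      apply commutator_mono <;>
      · rintro _ ⟨y, hy, rfl⟩
        exact hXn q hq y hy
    exact h2 ⟨a, ha, rfl⟩
  have hdiff : ∀ (g : G) (c : Q) (h : g * c * g⁻¹ * (c : G)⁻¹ ∈ Q),
      ψ g • π c = π ⟨g * c * g⁻¹ * (c : G)⁻¹, h⟩ + π c := by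
    intro g c h
    rw [hψ, ← hπm]
    congr 1
    apply Subtype.ext
    show g * c * g⁻¹ = g * c * g⁻¹ * (c : G)⁻¹ * c
    group
  have hmemQ : ∀ (g : G) (c : Q), g * c * g⁻¹ * (c : G)⁻¹ ∈ Q := fun g c =>
    mul_mem (hQn.conj_mem c c.2 g) (inv_mem c.2)
  have hfixA : ∀ a ∈ ⁅X, X⁆, ∀ (s : Q), (s : G) ∈ ⁅X, X⁆ → ψ a • π s = π s := by
    intro a ha s hs
    rw [hψ]
    congr 1
    apply Subtype.ext
    show a * s * a⁻¹ = s
    rw [hab a ha s hs]; group
  have hquad : ∀ a ∈ ⁅Y, Y⁆, ∀ w : W, a • a • w + a • w + w = 0 := by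
    rw [hYY]
    rintro _ ⟨a, ha, rfl⟩ w
    obtain ⟨c, rfl⟩ := hπs w
    have hr : a * c * a⁻¹ * (c : G)⁻¹ ∈ ⁅X, X⁆ := by
      have h2 : a * c * a⁻¹ * (c : G)⁻¹ = a * ((c : G) * a⁻¹ * (c : G)⁻¹) := by group
      rw [h2]
      exact mul_mem ha (hAn c c.2 _ (inv_mem ha))
    have e1 := hdiff a c (hmemQ a c)
    have e2 := hfixA a ha ⟨_, hmemQ a c⟩ hr
    have e3 : ψ a • ψ a • π c = π ⟨_, hmemQ a c⟩ + (π ⟨_, hmemQ a c⟩ + π c) := by
      rw [e1, smul_add, e2, e1]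
    rw [e3, e1]
    have h4 := h3 (π ⟨_, hmemQ a c⟩)
    have h5 := h3 (π c)
    have h6 : π ⟨_, hmemQ a c⟩ + (π ⟨_, hmemQ a c⟩ + π c) + (π ⟨_, hmemQ a c⟩ + π c) + π c =
        (π ⟨_, hmemQ a c⟩ + π ⟨_, hmemQ a c⟩ + π ⟨_, hmemQ a c⟩) + (π c + π c + π c) := by abel
    rw [h6, h4, h5, add_zero]
  have hquad2 : ∀ a ∈ ⁅Y, Y⁆, ∀ x ∈ Y, ∀ w : W,
      a • (x • x • w + x • w + w) = x • x • w + x • w + w := by
    rw [hYY]
    rintro _ ⟨a, ha, rfl⟩ _ ⟨x, hx, rfl⟩ w
    obtain ⟨c, rfl⟩ := hπs w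
    have hr : x * c * x⁻¹ * (c : G)⁻¹ ∈ X := by
      have h2 : x * c * x⁻¹ * (c : G)⁻¹ = x * ((c : G) * x⁻¹ * (c : G)⁻¹) := by group
      rw [h2]
      exact mul_mem hx (hXn c c.2 _ (inv_mem hx))
    set r : Q := ⟨x * c * x⁻¹ * (c : G)⁻¹, hmemQ x c⟩ with hrdef
    have hs : x * r * x⁻¹ * (r : G)⁻¹ ∈ ⁅X, X⁆ := by
      rw [← commutatorElement_def]
      exact commutator_mem_commutator hx hr
    set s : Q := ⟨x * r * x⁻¹ * (r : G)⁻¹, hmemQ x r⟩ with hsdef
    have e1 : ψ x • π c = π r + π c := hdiff x c (hmemQ x c)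
    have e2 : ψ x • π r = π s + π r := hdiff x r (hmemQ x r)
    have e3 : ψ a • π s = π s := hfixA a ha s hs
    have e4 : ψ x • ψ x • π c + ψ x • π c + π c = π s := by
      rw [e1, smul_add, e1, e2]
      have h5 : π s + π r + (π r + π c) + (π r + π c) + π c =
        π s + (π r + π r + π r) + (π c + π c + π c) := by abel
      rw [h5, h3, h3, add_zero, add_zero]
    rw [e4, e3]
  -- `[Y, Y]` centralizes all `Y`-invariant `q`-subgroups of `N`
  have hcent : ∀ q : ℕ, q.Prime → ∀ C : Subgroup θ.range, IsPGroup q C → C ≤ N →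
      (∀ y ∈ Y, ∀ c ∈ C, y * c * y⁻¹ ∈ C) → ∀ c ∈ C, ∀ a ∈ ⁅Y, Y⁆, a * c = c * a := by
    intro q hq C hC hCN hYC c hc a ha
    by_cases hq2 : q = 2
    · subst hq2
      exact QuadThree.commute_of_quadratic h3 Y hYp hcommY hquad hquad2 C hC hYC c hc a ha
    · have haY : a ∈ Y := commutator_le_self Y ha
      haveI : Fact q.Prime := ⟨hq⟩
      have hD3 : ¬ 3 ∣ Nat.card C := fun h => hN3 (h.trans (card_dvd_of_le hCN))
      have hD2 : ¬ 2 ∣ Nat.card C := by
        obtain ⟨n, hn⟩ := IsPGroup.iff_card.mp hC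
        rw [hn]
        intro h
        exact hq2 ((Nat.prime_dvd_prime_iff_eq Nat.prime_two hq).mp
          (Nat.prime_two.dvd_of_dvd_pow h)).symm
      have hn : a ∈ normalizer (C : Set θ.range) :=
        (QuadThree.le_normalizer_of_conj hYC) haY
      exact QuadOdd.commute_of_odd h3 C a hD2 hD3 hn (hquad a ha) c hc
  -- so `[Y, Y]` centralizes `N`
  have hNle : N ≤ centralizer ((⁅Y, Y⁆ : Subgroup θ.range) : Set θ.range) := by
    have htop : (centralizer ((⁅Y, Y⁆ : Subgroup θ.range) : Set θ.range)).subgroupOf N = ⊤ := by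
      apply Lib.Cores.eq_top_of_sylow_le
      intro q hq
      obtain ⟨S, ⟨T, hT⟩, hS⟩ := Lib.PGroupCoprimeAction.exists_invariant_sylow (p := 3) (A := Y)
        (H := N) hYp hN3 (fun b _ u hu => hNn.conj_mem u hu b) q
      refine ⟨T, ?_⟩
      intro t ht
      rw [mem_subgroupOf, mem_centralizer_iff]
      intro a ha
      have htS : (t : θ.range) ∈ S := by rw [← hT]; exact ⟨t, ht, rfl⟩
      have hSq : IsPGroup q S := by rw [← hT]; exact T.2.map _
      have hSN : S ≤ N := by rw [← hT]; exact map_subtype_le _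
      exact hcent q hq.out S hSq hSN hS _ htS a ha
    exact subgroupOf_eq_top.mp htop
  have hYY1 : ⁅Y, Y⁆ = ⊥ := by
    have h2 : ⁅Y, Y⁆ ≤ N := by
      refine le_trans ?_ hNc
      rw [le_centralizer_iff]
      exact hNle
    rw [eq_bot_iff]
    intro y hy
    have h4 : IsPGroup 3 (⁅Y, Y⁆ : Subgroup θ.range) := hYp.to_le (commutator_le_self Y)
    have h5 : Disjoint (⁅Y, Y⁆ : Subgroup θ.range) N := by
      apply Subgroup.disjoint_of_coprime_natCard
      obtain ⟨n, hn⟩ := IsPGroup.iff_card.mp h4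
      rw [hn]
      exact Nat.Coprime.pow_left n hNcop.symm
    exact h5.le_bot ⟨hy, h2 hy⟩
  rw [hYY, Subgroup.map_eq_bot_iff, hker] at hYY1
  exact hYY1

end Cfsg.Agent.H451.DerivedCore
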