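import Mathlib
import Cfsg.Agent.H451.PowellA

/-!
# Powell's theorem (S3792): cyclic Sylow `p`-subgroups

`G` is a finite simple group all of whose proper subgroups are `p`-soluble and which is not generated by
three elements; the Sylow `p`-subgroups of `G` are cyclic. If `x` generates one then for all `g` the element
`g x g⁻¹` is congruent to a power `x ^ j(g)` modulo `O_{p'}(⟨x, g⟩)`, and `j` is a homomorphism, trivial as `G`
is perfect; Burnside's theorem gives a contradiction.
-/

set_option autoImplicit false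

namespace Cfsg.Agent.H451.PowellB

open Cfsg Subgroup Cfsg.Agent.Lib Cfsg.Agent.Classification
open Cfsg.Agent.Classification.FlavellB (core core_def core_le core_coprime le_normalizer_core le_core)
open scoped Pointwise

universe u

/-- In a `p`-soluble group with `O_{p'}(H) = 1` and abelian Sylow `p`-subgroups, all `p`-elements lie in
`O_p(H)`. -/
theorem mem_pCore {H : Type u} [Group H] [Finite H] {p : ℕ} [Fact p.Prime] (hsol : IsPSolvable p H)
    (hcore : pPrimeCore p H = ⊥) (hab : ∀ S : Sylow p H, IsMulCommutative (S : Subgroup H)) {x : H}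
    (hx : IsPGroup p (zpowers x)) : x ∈ pCore p H := by
  obtain ⟨S, hS⟩ := hx.exists_le_sylow
  have h1 := PSolvable.centralizer_pCore_le_of_pSolvable p hsol hcore
  apply h1
  rw [mem_centralizer_iff]
  intro y hy
  have hyS : y ∈ (S : Subgroup H) := HallHigman.pCore_le_sylow p S hy
  have hxS : x ∈ (S : Subgroup H) := hS (mem_zpowers x)
  have := (hab S).is_comm.comm (⟨y, hyS⟩ : (S : Subgroup H)) ⟨x, hxS⟩
  exact congrArg Subtype.val this

/-- `g x g⁻¹` is a power of `x` modulo `O_{p'}(L)`. -/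
theorem exists_zpow {L : Type u} [Group L] [Finite L] {p : ℕ} [Fact p.Prime] (hsol : IsPSolvable p L)
    (hcyc : ∀ S : Sylow p L, IsCyclic (S : Subgroup L)) {x : L} (hx : IsPGroup p (zpowers x)) (g : L) :
    ∃ m : ℤ, g * x * g⁻¹ * (x ^ m)⁻¹ ∈ pPrimeCore p L := by
  have hN : (pPrimeCore p L).Normal := pPrimeCore_normal p L
  set f : L →* L ⧸ pPrimeCore p L := QuotientGroup.mk' (pPrimeCore p L) with hf
  have hfs : Function.Surjective f := QuotientGroup.mk'_surjective _
  have hsol' : IsPSolvable p (L ⧸ pPrimeCore p L) := PSolvable.IsPSolvable_of_surjective p hsol f hfs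
  have hcore : pPrimeCore p (L ⧸ pPrimeCore p L) = ⊥ := Lib.Cores.pPrimeCore_quotient_pPrimeCore p
  have hcyc' : ∀ S : Sylow p (L ⧸ pPrimeCore p L), IsCyclic (S : Subgroup (L ⧸ pPrimeCore p L)) := by
    intro S
    obtain ⟨T⟩ : Nonempty (Sylow p L) := inferInstance
    have h1 := hcyc T
    have h2 : IsCyclic ↥((T : Subgroup L).map f) :=
      isCyclic_of_surjective (f.subgroupMap (T : Subgroup L)) (f.subgroupMap_surjective _)
    set T' := T.mapSurjective hfs with hT'
    have h3 : ((T' : Sylow p (L ⧸ pPrimeCore p L)) : Subgroup (L ⧸ pPrimeCore p L)) =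
        (T : Subgroup L).map f := T.coe_mapSurjective hfs
    have h4 : IsCyclic (T' : Subgroup (L ⧸ pPrimeCore p L)) := by rw [h3]; exact h2
    exact (Sylow.equiv T' S).isCyclic.mp h4
  have hxf : IsPGroup p (zpowers (f x)) := by
    have := hx.map f
    rwa [MonoidHom.map_zpowers] at this
  have hmem : f x ∈ pCore p (L ⧸ pPrimeCore p L) :=
    mem_pCore hsol' hcore (fun S => by have := hcyc' S; exact IsCyclic.isMulCommutative) hxf
  have hQn : (pCore p (L ⧸ pPrimeCore p L)).Normal := HallHigman.pCore_normal p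
  have hQc : IsCyclic ↥(pCore p (L ⧸ pPrimeCore p L)) := by
    obtain ⟨S⟩ : Nonempty (Sylow p (L ⧸ pPrimeCore p L)) := inferInstance
    have := hcyc' S
    exact isCyclic_of_injective (Subgroup.inclusion (HallHigman.pCore_le_sylow p S))
      (Subgroup.inclusion_injective _)
  obtain ⟨m, hm⟩ := MonoidHom.map_cyclic
    ((MulAut.conjNormal (f g) : MulAut ↥(pCore p (L ⧸ pPrimeCore p L))).toMonoidHom)
  refine ⟨m, ?_⟩
  rw [← QuotientGroup.eq_one_iff, ← QuotientGroup.mk'_apply, ← hf]
  have h1 := congrArg Subtype.val (hm ⟨f x, hmem⟩)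
  have h2 : f g * f x * (f g)⁻¹ = f x ^ m := by
    simpa using h1
  rw [map_mul, map_mul, map_mul, map_inv, map_inv, map_zpow, h2, mul_inv_cancel]

variable {G : Type u} [Group G] [Finite G]

/-- The version in a subgroup `L` of `G`. -/
theorem exists_zpow_core {p : ℕ} [Fact p.Prime] (hcyc : ∀ P : Sylow p G, IsCyclic (P : Subgroup G))
    {L : Subgroup G} (hL : IsPSolvable p L) {x : G} (hx : IsPGroup p (zpowers x)) (hxL : x ∈ L)
    {g : G} (hg : g ∈ L) : ∃ m : ℤ, g * x * g⁻¹ * (x ^ m)⁻¹ ∈ core p L := by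
  have hcycL : ∀ S : Sylow p L, IsCyclic (S : Subgroup L) := by
    intro S
    have h1 : IsPGroup p ((S : Subgroup L).map L.subtype) := S.isPGroup'.map _
    obtain ⟨P, hP⟩ := h1.exists_le_sylow
    have := hcyc P
    let f : (S : Subgroup L) →* (P : Subgroup G) :=
      { toFun := fun s => ⟨((s : L) : G), hP ⟨s, s.2, rfl⟩⟩
        map_one' := rfl
        map_mul' := fun _ _ => rfl }
    refine isCyclic_of_injective f ?_
    intro a b hab
    have h2 : ((f a : (P : Subgroup G)) : G) = ((f b : (P : Subgroup G)) : G) := by rw [hab]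
    exact Subtype.ext (Subtype.ext h2)
  have hx' : IsPGroup p (zpowers (⟨x, hxL⟩ : L)) := by
    have h1 : IsPGroup p ((zpowers x).comap L.subtype) :=
      hx.comap_of_injective L.subtype L.subtype_injective
    refine h1.to_le ?_
    rw [zpowers_le, mem_comap]
    exact mem_zpowers x
  obtain ⟨m, hm⟩ := exists_zpow hL hcycL hx' ⟨g, hg⟩
  exact ⟨m, ⟨_, hm, rfl⟩⟩

/-- The exponent is unique modulo the order of `x`, independently of the subgroup. -/
theorem zpow_unique {p : ℕ} [Fact p.Prime] {L₁ L₂ : Subgroup G} (h12 : L₁ ≤ L₂) {x g : G}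
    (hx : IsPGroup p (zpowers x)) (hx₁ : x ∈ L₁) (hg : g ∈ L₁) {m n : ℤ}
    (hm : g * x * g⁻¹ * (x ^ m)⁻¹ ∈ core p L₁) (hn : g * x * g⁻¹ * (x ^ n)⁻¹ ∈ core p L₂) :
    (m : ZMod (orderOf x)) = (n : ZMod (orderOf x)) := by
  have h1 : L₁ ⊓ core p L₂ ≤ core p L₁ := by
    apply le_core inf_le_left
    · intro y hy
      have hy2 := le_normalizer_core p L₂ (h12 hy)
      rw [mem_normalizer_iff] at hy2 ⊢
      intro z
      rw [mem_inf, mem_inf, ← hy2 z]
      constructor
      · rintro ⟨a, b⟩
        exact ⟨L₁.mul_mem (L₁.mul_mem hy a) (L₁.inv_mem hy), b⟩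
      · rintro ⟨a, b⟩
        refine ⟨?_, b⟩
        have := L₁.mul_mem (L₁.mul_mem (L₁.inv_mem hy) a) hy
        have e : y⁻¹ * (y * z * y⁻¹) * y = z := by group
        rwa [e] at this
    · exact Nat.Coprime.coprime_dvd_left (card_dvd_of_le inf_le_right) (core_coprime p L₂)
  have h2 : g * x * g⁻¹ * (x ^ n)⁻¹ ∈ core p L₁ :=
    h1 ⟨L₁.mul_mem (L₁.mul_mem (L₁.mul_mem hg hx₁) (L₁.inv_mem hg))
      (L₁.inv_mem (L₁.zpow_mem hx₁ n)), hn⟩
  have h3 : x ^ m * (x ^ n)⁻¹ ∈ core p L₁ := by
    have := (core p L₁).mul_mem ((core p L₁).inv_mem hm) h2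
    have e : (g * x * g⁻¹ * (x ^ m)⁻¹)⁻¹ * (g * x * g⁻¹ * (x ^ n)⁻¹) = x ^ m * (x ^ n)⁻¹ := by group
    rwa [e] at this
  have h4 : zpowers x ⊓ core p L₁ = ⊥ :=
    PLocal.PConstrained.inf_eq_bot_of_isPGroup_of_coprime hx (core_coprime _ _)
  have h5 : x ^ m * (x ^ n)⁻¹ ∈ zpowers x ⊓ core p L₁ :=
    ⟨(zpowers x).mul_mem (zpow_mem_zpowers x m) ((zpowers x).inv_mem (zpow_mem_zpowers x n)), h3⟩
  rw [h4, mem_bot] at h5
  have h6 : x ^ m = x ^ n := mul_inv_eq_one.mp h5
  rw [zpow_eq_zpow_iff_modEq] at h6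
  exact (ZMod.intCast_eq_intCast_iff _ _ _).mpr h6

/-- **Powell's theorem for cyclic Sylow subgroups.** -/
theorem exists_gen_of_cyclic [IsSimpleGroup G] (hna : ¬ IsMulCommutative G) {p : ℕ} [Fact p.Prime]
    (hsol : ∀ H : Subgroup G, H ≠ ⊤ → IsPSolvable p H) (hdvd : p ∣ Nat.card G)
    (hcyc : ∀ P : Sylow p G, IsCyclic (P : Subgroup G))
    (hgen : ∀ x y z : G, Subgroup.closure {x, y, z} ≠ ⊤) : False := by
  have hgen2 := PowellA.gen_two hgen
  obtain ⟨P⟩ : Nonempty (Sylow p G) := inferInstance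
  have hPc := hcyc P
  obtain ⟨x, hx⟩ := Subgroup.isCyclic_iff_exists_zpowers_eq_top (P : Subgroup G) |>.mp hPc
  have hxp : IsPGroup p (zpowers x) := by rw [hx]; exact P.isPGroup'
  -- existence in every proper subgroup
  have hex : ∀ L : Subgroup G, L ≠ ⊤ → x ∈ L → ∀ g ∈ L, ∃ m : ℤ,
      g * x * g⁻¹ * (x ^ m)⁻¹ ∈ core p L := fun L hL hxL g hg =>
    exists_zpow_core hcyc (hsol L hL) hxp hxL hg
  have hx1 : ∀ g : G, x ∈ closure ({x, g} : Set G) := fun g => subset_closure (by simp)
  have hg1 : ∀ g : G, g ∈ closure ({x, g} : Set G) := fun g => subset_closure (by simp)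
  choose j hj using fun g : G => hex (closure {x, g}) (hgen2 x g) (hx1 g) g (hg1 g)
  -- independence
  have huniq : ∀ (L : Subgroup G) (g : G), x ∈ L → g ∈ L → ∀ m : ℤ,
      g * x * g⁻¹ * (x ^ m)⁻¹ ∈ core p L → (j g : ZMod (orderOf x)) = (m : ZMod (orderOf x)) := by
    intro L g hxL hgL m hm
    refine zpow_unique (L₁ := closure {x, g}) (L₂ := L) ?_ hxp (hx1 g) (hg1 g) (hj g) hm
    rw [closure_le]
    rintro y (rfl | rfl)
    · exact hxL
    · exact hgL
  -- the homomorphism
  let φ : G →* ZMod (orderOf x) :=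
    { toFun := fun g => (j g : ZMod (orderOf x))
      map_one' := by
        have h1 := huniq (closure {x, 1}) 1 (hx1 1) (hg1 1) 1 (by
          have e : (1 : G) * x * 1⁻¹ * (x ^ (1 : ℤ))⁻¹ = 1 := by simp
          rw [e]; exact one_mem _)
        rw [h1]; simp
      map_mul' := by
        intro g h
        set L := closure ({x, g, h} : Set G) with hL
        have hxL : x ∈ L := subset_closure (by simp)
        have hgL : g ∈ L := subset_closure (by simp)
        have hhL : h ∈ L := subset_closure (by simp)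
        obtain ⟨a, ha⟩ := hex L (hgen x g h) hxL g hgL
        obtain ⟨b, hb⟩ := hex L (hgen x g h) hxL h hhL
        have hja := huniq L g hxL hgL a ha
        have hjb := huniq L h hxL hhL b hb
        have hnorm := le_normalizer_core p L
        -- `g x^b g⁻¹ ≡ x^(a b)`
        have h1 : g * x ^ b * g⁻¹ * (x ^ (a * b))⁻¹ ∈ core p L := by
          have hN : ((core p L).subgroupOf L).Normal :=
            (normal_subgroupOf_iff_le_normalizer (core_le p L)).mpr hnorm
          set f := QuotientGroup.mk' ((core p L).subgroupOf L) with hf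
          have key : ∀ y : L, f y = 1 ↔ (y : G) ∈ core p L := by
            intro y
            rw [hf, QuotientGroup.mk'_apply, QuotientGroup.eq_one_iff, mem_subgroupOf]
          set x' : L := ⟨x, hxL⟩ with hx'
          set g' : L := ⟨g, hgL⟩ with hg'
          have h2 : f (g' * x' * g'⁻¹) = f (x' ^ a) := by
            have h3 : f (g' * x' * g'⁻¹ * (x' ^ a)⁻¹) = 1 := (key _).mpr (by simpa [hx', hg'] using ha)
            rw [map_mul, map_inv, mul_inv_eq_one] at h3
            exact h3
          have h4 : f (g' * x' ^ b * g'⁻¹ * (x' ^ (a * b))⁻¹) = 1 := by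
            have h5 : g' * x' ^ b * g'⁻¹ = (g' * x' * g'⁻¹) ^ b := by
              rw [conj_zpow]
            rw [h5, map_mul, map_zpow, h2, map_inv, ← map_zpow, ← zpow_mul, mul_inv_cancel]
          have h6 := (key _).mp h4
          simpa [hx', hg'] using h6
        have h2 : (g * h) * x * (g * h)⁻¹ * (x ^ (a * b))⁻¹ ∈ core p L := by
          have h3 : g * (h * x * h⁻¹ * (x ^ b)⁻¹) * g⁻¹ ∈ core p L :=
            (mem_normalizer_iff.mp (hnorm hgL) _).mp hb
          have h4 := (core p L).mul_mem h3 h1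
          have e : g * (h * x * h⁻¹ * (x ^ b)⁻¹) * g⁻¹ * (g * x ^ b * g⁻¹ * (x ^ (a * b))⁻¹) =
              (g * h) * x * (g * h)⁻¹ * (x ^ (a * b))⁻¹ := by group
          rwa [e] at h4
        have h3 := huniq L (g * h) hxL (L.mul_mem hgL hhL) (a * b) h2
        rw [h3, hja, hjb]
        push_cast
        rfl }
  have hφ : ∀ g : G, (j g : ZMod (orderOf x)) = 1 := by
    have hker : φ.toHomUnits.ker = ⊤ := by
      rcases (inferInstance : φ.toHomUnits.ker.Normal).eq_bot_or_eq_top with h | h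
      · exfalso
        apply hna
        refine ⟨⟨fun a b => ?_⟩⟩
        apply (MonoidHom.ker_eq_bot_iff _).mp h
        rw [map_mul, map_mul, mul_comm]
      · exact h
    intro g
    have h1 : g ∈ φ.toHomUnits.ker := by rw [hker]; trivial
    have h2 : φ.toHomUnits g = 1 := h1
    have h3 := congrArg Units.val h2
    exact h3
  -- `N_G(P) = C_G(P)`
  have hNC : Subgroup.normalizer ((P : Subgroup G) : Set G) ≤ Subgroup.centralizer ((P : Subgroup G) : Set G) := by
    intro n hn
    have hxP : x ∈ (P : Subgroup G) := by rw [← hx]; exact mem_zpowers x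
    have h1 : n * x * n⁻¹ ∈ (P : Subgroup G) := (mem_normalizer_iff.mp hn x).mp hxP
    rw [← hx] at h1
    obtain ⟨m, hm⟩ := mem_zpowers_iff.mp h1
    have h2 := huniq (closure {x, n}) n (hx1 n) (hg1 n) m (by
      rw [← hm, mul_inv_cancel]; exact one_mem _)
    rw [hφ n] at h2
    have h3 : x ^ m = x ^ (1 : ℤ) := by
      rw [zpow_eq_zpow_iff_modEq]
      apply (ZMod.intCast_eq_intCast_iff _ _ _).mp
      rw [← h2]; simp
    have h4 : n * x = x * n := by
      rw [h3, zpow_one] at hm
      rw [eq_comm, mul_inv_eq_iff_eq_mul] at hm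
      exact hm
    rw [mem_centralizer_iff]
    intro y hy
    have hy' : y ∈ zpowers x := by rw [hx]; exact hy
    obtain ⟨k, rfl⟩ := mem_zpowers_iff.mp hy'
    have h5 : Commute n x := h4
    exact (h5.zpow_right k).eq.symm
  have hcompl := MonoidHom.ker_transferSylow_isComplement' P hNC
  have hker : (MonoidHom.transferSylow P hNC).ker = ⊤ ∨ (MonoidHom.transferSylow P hNC).ker = ⊥ := by
    rcases (inferInstance : (MonoidHom.transferSylow P hNC).ker.Normal).eq_bot_or_eq_top with h | h
    · exact Or.inr h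
    · exact Or.inl h
  rcases hker with h | h
  · have h1 := MonoidHom.not_dvd_card_ker_transferSylow P hNC
    rw [h, card_top] at h1
    exact h1 hdvd
  · have h1 := hcompl
    rw [h] at h1
    have h2 : (P : Subgroup G) = ⊤ := by
      rw [isComplement'_bot_left] at h1
      exact h1
    apply hna
    have h3 : IsCyclic G := by
      have : IsCyclic (⊤ : Subgroup G) := by rw [← h2]; exact hPc
      exact Subgroup.topEquiv.isCyclic.mp this
    exact IsCyclic.isMulCommutative

/-- **Powell's theorem for `p ≥ 5`.** -/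
theorem exists_gen_of_five_le [IsSimpleGroup G] (hna : ¬ IsMulCommutative G) {p : ℕ} [Fact p.Prime]
    (hp5 : 5 ≤ p) (hdvd : p ∣ Nat.card G) (hsol : ∀ H : Subgroup G, H ≠ ⊤ → IsPSolvable p H) :
    ∃ x y z : G, Subgroup.closure ({x, y, z} : Set G) = ⊤ := by
  by_contra hcon
  push Not at hcon
  exact exists_gen_of_cyclic hna hsol hdvd
    (fun P => PowellA.isCyclic_sylow hsol hcon hp5 hdvd P) hcon

end Cfsg.Agent.H451.PowellB
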