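import Mathlib
import Cfsg.Prelude.Def_Exceptional
import Cfsg.Agent.H451.PowellB

/-!
# Powell's theorem (S3792) for `p = 3`: change of the prime

If all proper subgroups of the simple group `G` are 3-soluble, then the non-abelian composition factors of
the proper subgroups are simple `3'`-groups, hence of Suzuki order. If a prime `r ≥ 5` dividing `|G|` divides
no Suzuki order dividing `|G|` then all proper subgroups are `r`-soluble, and `G` is generated by three
elements by the theorem for `r ≥ 5`. This applies to the sporadic groups and the Tits group.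
-/

set_option autoImplicit false

namespace Cfsg.Agent.H451.PowellC

open Cfsg Subgroup Cfsg.Agent.Lib

universe u

/-- The order of the Suzuki group over the field with `2 ^ (2 * m + 1)` elements. -/
def sz (m : ℕ) : ℕ := (2 ^ (2 * m + 1)) ^ 2 * ((2 ^ (2 * m + 1)) ^ 2 + 1) * (2 ^ (2 * m + 1) - 1)

/-- The theorem S0336 as a hypothesis. -/
def ThreePrime : Prop := ∀ (K : Type u) [Group K] [Finite K] [IsSimpleGroup K],
  (∃ a b : K, a * b ≠ b * a) → ¬ 3 ∣ Nat.card K → IsSuzuki K

theorem isPSolvable_of_coprime {H : Type u} [Group H] [Finite H] (q : ℕ) [Fact q.Prime]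
    (h : (Nat.card H).Coprime q) : IsPSolvable q H := by
  refine PSolvable.IsPSolvable_of_quotient q (⊤ : Subgroup H) (Or.inr ?_) ?_
  · rwa [card_top]
  · have : Subsingleton (H ⧸ (⊤ : Subgroup H)) := QuotientGroup.subsingleton_quotient_top
    exact PSolvable.IsPSolvable_of_solvable q

/-- A simple `p`-soluble group is commutative or a `p'`-group. -/
theorem simple_isPSolvable {K : Type u} [Group K] [Finite K] [IsSimpleGroup K] {p : ℕ} [Fact p.Prime]
    (h : IsPSolvable p K) : IsMulCommutative K ∨ (Nat.card K).Coprime p := by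
  rcases PSolvable.exists_core_ne_bot p h with h1 | h1
  · left
    have hn : (pCore p K).Normal := HallHigman.pCore_normal p
    have htop := hn.eq_bot_or_eq_top.resolve_left h1
    have hp : IsPGroup p (pCore p K) := HallHigman.pCore_isPGroup p
    rw [htop] at hp
    have hKp : IsPGroup p K := hp.of_equiv Subgroup.topEquiv
    have hnil : Group.IsNilpotent K := hKp.isNilpotent
    have hs : Group.IsSolvable K := inferInstance
    exact ⟨⟨IsSimpleGroup.comm_iff_isSolvable.mpr hs⟩⟩
  · right
    have hn : (pPrimeCore p K).Normal := HallHigman.pPrimeCore_normal p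
    have htop := hn.eq_bot_or_eq_top.resolve_left h1
    have hc : (Nat.card (pPrimeCore p K)).Coprime p := HallHigman.pPrimeCore_coprime p
    rwa [htop, card_top] at hc

/-- **Change of the prime.** -/
theorem isPSolvable_switch (hT : ThreePrime.{u}) (N q : ℕ) [Fact q.Prime]
    (hq : ∀ m, 1 ≤ m → sz m ∣ N → ¬ q ∣ sz m) :
    ∀ (n : ℕ) (H : Type u) [Group H] [Finite H], Nat.card H = n → Nat.card H ∣ N →
      IsPSolvable 3 H → IsPSolvable q H := by
  have h3 : Fact (Nat.Prime 3) := ⟨Nat.prime_three⟩
  intro n
  induction n using Nat.strong_induction_on with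
  | _ n ih =>
  intro H _ _ hn hdvd hsol
  by_cases hnt : Nontrivial H
  swap
  · have : Subsingleton H := not_nontrivial_iff_subsingleton.mp hnt
    exact PSolvable.IsPSolvable_of_solvable q
  by_cases hs : IsSimpleGroup H
  · rcases simple_isPSolvable hsol with hc | hc
    · have : Group.IsSolvable H := IsSimpleGroup.comm_iff_isSolvable.mp hc.is_comm.comm
      exact PSolvable.IsPSolvable_of_solvable q
    · by_cases hna : ∃ a b : H, a * b ≠ b * a
      · obtain ⟨-, m, hm, hcard⟩ := hT H hna (by
          rw [← Nat.Prime.coprime_iff_not_dvd Nat.prime_three]; exact hc.symm)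
        have h1 : ¬ q ∣ Nat.card H := by
          rw [hcard]
          exact hq m hm (by rw [hcard] at hdvd; exact hdvd)
        exact isPSolvable_of_coprime q
          ((Nat.Prime.coprime_iff_not_dvd (Fact.out : q.Prime)).mpr h1).symm
      · push Not at hna
        have : Group.IsSolvable H := IsSimpleGroup.comm_iff_isSolvable.mp hna
        exact PSolvable.IsPSolvable_of_solvable q
  · obtain ⟨M, hMn, hM1, hM2⟩ : ∃ M : Subgroup H, M.Normal ∧ M ≠ ⊥ ∧ M ≠ ⊤ := by
      by_contra hcon
      push Not at hcon
      apply hs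
      refine ⟨fun M hM => ?_⟩
      by_cases h : M = ⊥
      · exact Or.inl h
      · exact Or.inr (hcon M hM h)
    have hlt1 : Nat.card M < n := by
      rw [← hn]
      exact lt_of_le_of_ne (Nat.card_le_card_of_injective _ M.subtype_injective)
        (fun h => hM2 (Subgroup.eq_top_of_card_eq M h))
    have hmul := M.card_mul_index
    have h1lt : 1 < Nat.card M := (Subgroup.one_lt_card_iff_ne_bot M).mpr hM1
    have hidx : 0 < M.index := Nat.pos_of_ne_zero Subgroup.FiniteIndex.index_ne_zero
    have hlt2 : Nat.card (H ⧸ M) < n := by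
      rw [← hn, ← hmul, ← Subgroup.index_eq_card]
      nlinarith
    refine PSolvable.IsPSolvable_of_extension q M ?_ ?_
    · exact ih _ hlt1 M rfl ((Subgroup.card_subgroup_dvd_card M).trans hdvd)
        (PSolvable.IsPSolvable_of_injective 3 hsol M.subtype M.subtype_injective)
    · refine ih _ hlt2 (H ⧸ M) rfl ?_
        (PSolvable.IsPSolvable_of_surjective 3 hsol (QuotientGroup.mk' M) (QuotientGroup.mk'_surjective M))
      rw [← Subgroup.index_eq_card]
      exact (Subgroup.index_dvd_card M).trans hdvd

/-- The numerical condition: `r ∣ N`, and `r` does not divide a Suzuki order dividing `N`. -/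
def chk (N r : ℕ) : Bool :=
  (N % r == 0) && !(N % 2 ^ 50 == 0) &&
    (List.range 11).all fun i => !((N % sz (i + 1) == 0) && (sz (i + 1) % r == 0))

theorem chk_dvd {N r : ℕ} (h : chk N r = true) : r ∣ N := by
  rw [chk, Bool.and_eq_true, Bool.and_eq_true] at h
  exact Nat.dvd_of_mod_eq_zero (by simpa using h.1.1)

theorem chk_sz {N r : ℕ} (h : chk N r = true) {m : ℕ} (hm : 1 ≤ m) (hdvd : sz m ∣ N) :
    ¬ r ∣ sz m := by
  rw [chk, Bool.and_eq_true, Bool.and_eq_true] at h
  have h1 : ¬ 2 ^ 50 ∣ N := by
    intro h'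
    have h3 := Nat.mod_eq_zero_of_dvd h'
    have h4 := h.1.2
    rw [h3] at h4
    simp at h4
  have h2 : (2 ^ (2 * m + 1)) ^ 2 ∣ N := by
    refine Dvd.dvd.trans ?_ hdvd
    rw [sz, mul_assoc]
    exact Dvd.intro _ rfl
  have hm11 : m ≤ 11 := by
    by_contra hcon
    apply h1
    refine Dvd.dvd.trans ?_ h2
    rw [← pow_mul]
    exact pow_dvd_pow 2 (by omega)
  intro hr
  have h3 := List.all_eq_true.mp h.2 (m - 1) (List.mem_range.mpr (by omega))
  have h4 : m - 1 + 1 = m := by omega
  rw [h4] at h3
  have h5 : N % sz m = 0 := Nat.mod_eq_zero_of_dvd hdvd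
  have h6 : sz m % r = 0 := Nat.mod_eq_zero_of_dvd hr
  simp [h5, h6] at h3

/-- The conclusion of Powell's theorem for groups whose order passes the numerical check. -/
theorem of_chk (hT : ThreePrime.{u}) {G : Type u} [Group G] [Finite G] [IsSimpleGroup G]
    (hna : ¬ IsMulCommutative G) (hprop : ∀ H : Subgroup G, H ≠ ⊤ → IsPSolvable 3 H) {N : ℕ}
    (hN : Nat.card G = N) (r : ℕ) (hr : r.Prime) (hr5 : 5 ≤ r) (h : chk N r = true) :
    ∃ x y z : G, Subgroup.closure ({x, y, z} : Set G) = ⊤ := by
  have : Fact r.Prime := ⟨hr⟩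
  refine PowellB.exists_gen_of_five_le hna (p := r) hr5 ?_ ?_
  · rw [hN]; exact chk_dvd h
  · intro H hH
    refine isPSolvable_switch hT N r (fun m hm hd => chk_sz h hm hd) _ H rfl ?_ (hprop H hH)
    rw [← hN]
    exact Subgroup.card_subgroup_dvd_card H

/-- A non-commutative simple group of order divisible by `p` is not `p`-soluble. -/
theorem not_isPSolvable {K : Type u} [Group K] [Finite K] [IsSimpleGroup K] {p : ℕ} [Fact p.Prime]
    (hna : ¬ IsMulCommutative K) (hp : p ∣ Nat.card K) : ¬ IsPSolvable p K := by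
  intro h
  rcases simple_isPSolvable h with h1 | h1
  · exact hna h1
  · exact (Nat.Prime.coprime_iff_not_dvd (Fact.out : p.Prime)).mp h1.symm hp

/-- No non-`p`-soluble group of smaller order embeds in `G`. -/
theorem false_of_embedding {G : Type*} [Group G] [Finite G] {p : ℕ} [Fact p.Prime]
    (hprop : ∀ H : Subgroup G, H ≠ ⊤ → IsPSolvable p H) {K : Type*} [Group K]
    (hK : ¬ IsPSolvable p K) (f : K →* G) (hf : Function.Injective f)
    (hlt : Nat.card K < Nat.card G) : False := by
  apply hK
  have h1 : f.range ≠ ⊤ := by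
    intro h
    have h2 : Nat.card f.range = Nat.card K := (Nat.card_congr (MonoidHom.ofInjective hf).toEquiv).symm
    rw [h, card_top] at h2
    omega
  exact PSolvable.IsPSolvable_of_injective p (hprop _ h1) (MonoidHom.ofInjective hf).toMonoidHom
    (MonoidHom.ofInjective hf).injective

end Cfsg.Agent.H451.PowellC
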