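import Mathlib
import Cfsg.Prelude.Def_Classification2
import Cfsg.Agent.H451.PowellC
import Cfsg.Agent.NotCT.Orders

/-!
# Powell's theorem (S3792) for `p = 3`: sporadic groups, the Tits group and the alternating groups
-/

set_option autoImplicit false

namespace Cfsg.Agent.H451.PowellD

open Cfsg Subgroup Cfsg.Agent.Lib Cfsg.Agent.H451.PowellC Cfsg.Agent.NotCT

universe u

variable {G : Type u} [Group G] [Finite G] [IsSimpleGroup G]

theorem sporadic (hT : ThreePrime.{u}) (hna : ¬ IsMulCommutative G)
    (hprop : ∀ H : Subgroup G, H ≠ ⊤ → IsPSolvable 3 H) (h : IsSporadicGroup G) :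
    ∃ x y z : G, Subgroup.closure ({x, y, z} : Set G) = ⊤ := by
  rcases h with h | h | h | h | h | h | h | h | h | h | h | h | h | h | h | h | h | h | h | h | h |
    h | h | h | h | h
  · exact of_chk hT hna hprop (Orders.m11 h) 11 (by norm_num) (by norm_num) (by decide +kernel)
  · exact of_chk hT hna hprop (Orders.m12 h) 11 (by norm_num) (by norm_num) (by decide +kernel)
  · exact of_chk hT hna hprop (Orders.m22 h) 11 (by norm_num) (by norm_num) (by decide +kernel)
  · exact of_chk hT hna hprop (Orders.m23 h) 11 (by norm_num) (by norm_num) (by decide +kernel)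
  · exact of_chk hT hna hprop (Orders.m24 h) 11 (by norm_num) (by norm_num) (by decide +kernel)
  · exact of_chk hT hna hprop (Orders.j1 h) 11 (by norm_num) (by norm_num) (by decide +kernel)
  · exact of_chk hT hna hprop (Orders.j2 h) 7 (by norm_num) (by norm_num) (by decide +kernel)
  · exact of_chk hT hna hprop (Orders.j3 h) 19 (by norm_num) (by norm_num) (by decide +kernel)
  · exact of_chk hT hna hprop (Orders.j4 h) 11 (by norm_num) (by norm_num) (by decide +kernel)
  · exact of_chk hT hna hprop (Orders.co1 h) 11 (by norm_num) (by norm_num) (by decide +kernel)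
  · exact of_chk hT hna hprop (Orders.co2 h) 11 (by norm_num) (by norm_num) (by decide +kernel)
  · exact of_chk hT hna hprop (Orders.co3 h) 11 (by norm_num) (by norm_num) (by decide +kernel)
  · exact of_chk hT hna hprop (Orders.mcl h) 11 (by norm_num) (by norm_num) (by decide +kernel)
  · exact of_chk hT hna hprop (Orders.hs h) 11 (by norm_num) (by norm_num) (by decide +kernel)
  · exact of_chk hT hna hprop (Orders.suz h) 11 (by norm_num) (by norm_num) (by decide +kernel)
  · exact of_chk hT hna hprop (Orders.he h) 17 (by norm_num) (by norm_num) (by decide +kernel)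
  · exact of_chk hT hna hprop (Orders.ru h) 29 (by norm_num) (by norm_num) (by decide +kernel)
  · exact of_chk hT hna hprop (Orders.on h) 11 (by norm_num) (by norm_num) (by decide +kernel)
  · exact of_chk hT hna hprop (Orders.ly h) 11 (by norm_num) (by norm_num) (by decide +kernel)
  · exact of_chk hT hna hprop (Orders.fi22 h) 11 (by norm_num) (by norm_num) (by decide +kernel)
  · exact of_chk hT hna hprop (Orders.fi23 h) 11 (by norm_num) (by norm_num) (by decide +kernel)
  · exact of_chk hT hna hprop (Orders.fi24 h) 11 (by norm_num) (by norm_num) (by decide +kernel)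
  · exact of_chk hT hna hprop (Orders.hn h) 11 (by norm_num) (by norm_num) (by decide +kernel)
  · exact of_chk hT hna hprop (Orders.th h) 19 (by norm_num) (by norm_num) (by decide +kernel)
  · exact of_chk hT hna hprop (Orders.b h) 11 (by norm_num) (by norm_num) (by decide +kernel)
  · exact of_chk hT hna hprop (Orders.m h) 11 (by norm_num) (by norm_num) (by decide +kernel)

theorem tits (hT : ThreePrime.{u}) (hna : ¬ IsMulCommutative G)
    (hprop : ∀ H : Subgroup G, H ≠ ⊤ → IsPSolvable 3 H) (h : Lie.IsoTits G) :
    ∃ x y z : G, Subgroup.closure ({x, y, z} : Set G) = ⊤ :=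
  of_chk hT hna hprop (Orders.tits h) 13 (by norm_num) (by norm_num) (by decide +kernel)

theorem alternating (hT : ThreePrime.{u}) (hna : ¬ IsMulCommutative G)
    (hprop : ∀ H : Subgroup G, H ≠ ⊤ → IsPSolvable 3 H) (h : IsAlternating G) :
    ∃ x y z : G, Subgroup.closure ({x, y, z} : Set G) = ⊤ := by
  obtain ⟨n, hn, ⟨e⟩⟩ := h
  have hcard : ∀ k : ℕ, 2 ≤ k → 2 * Nat.card (alternatingGroup (Fin k)) = k.factorial := by
    intro k hk
    have : Nontrivial (Fin k) := Fin.nontrivial_iff_two_le.mpr hk
    rw [two_mul_nat_card_alternatingGroup, Nat.card_perm, Nat.card_fin]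
  have hGn : Nat.card G = Nat.card (alternatingGroup (Fin n)) := Nat.card_congr e.toEquiv
  have h5 := hcard 5 (by norm_num)
  have h5' : Nat.card (alternatingGroup (Fin 5)) = 60 := by
    have : (5 : ℕ).factorial = 120 := by decide
    omega
  rcases Nat.lt_or_ge 5 n with h6 | h6
  · exfalso
    have hfact : Fact (Nat.Prime 3) := ⟨Nat.prime_three⟩
    let c : Fin 5 ≃ {i : Fin n // (i : ℕ) < 5} := Fin.castLEquiv (show 5 ≤ n by omega)
    let f : Equiv.Perm (Fin 5) →* Equiv.Perm (Fin n) := Equiv.Perm.extendDomainHom c
    have hf : Function.Injective f := Equiv.Perm.extendDomainHom_injective c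
    let f1 : alternatingGroup (Fin 5) →* alternatingGroup (Fin n) :=
      (f.comp (alternatingGroup (Fin 5)).subtype).codRestrict _ (by
        rintro ⟨x, hx⟩
        rw [Equiv.Perm.mem_alternatingGroup] at hx ⊢
        show Equiv.Perm.sign (x.extendDomain c) = 1
        rw [Equiv.Perm.sign_extendDomain, hx])
    have hf1 : Function.Injective f1 := by
      intro a b hab
      apply Subtype.ext
      apply hf
      exact congrArg Subtype.val hab
    have hK : ¬ IsPSolvable 3 (alternatingGroup (Fin 5)) := by
      have : IsSimpleGroup (alternatingGroup (Fin 5)) :=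
        alternatingGroup.isSimpleGroup (by rw [Nat.card_fin])
      refine not_isPSolvable ?_ ?_
      · intro hc
        let a : alternatingGroup (Fin 5) := ⟨Equiv.swap 0 1 * Equiv.swap 1 2, by
          rw [Equiv.Perm.mem_alternatingGroup]; decide⟩
        let b : alternatingGroup (Fin 5) := ⟨Equiv.swap 0 1 * Equiv.swap 1 3, by
          rw [Equiv.Perm.mem_alternatingGroup]; decide⟩
        have h9 : a * b = b * a := hc.is_comm.comm a b
        have h10 : Equiv.swap (0 : Fin 5) 1 * Equiv.swap 1 2 * (Equiv.swap 0 1 * Equiv.swap 1 3) =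
            Equiv.swap 0 1 * Equiv.swap 1 3 * (Equiv.swap 0 1 * Equiv.swap 1 2) :=
          congrArg Subtype.val h9
        revert h10
        decide
      · rw [h5']; norm_num
    refine false_of_embedding hprop hK (e.symm.toMonoidHom.comp f1) ?_ ?_
    · exact e.symm.injective.comp hf1
    · rw [hGn]
      have h7 := hcard n (by omega)
      have h8 : (5 : ℕ).factorial < n.factorial := (Nat.factorial_lt (by norm_num)).2 h6
      omega
  · have hn5 : n = 5 := by omega
    subst hn5
    exact of_chk hT hna hprop (hGn.trans h5') 5 (by norm_num) (by norm_num) (by decide +kernel)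

end Cfsg.Agent.H451.PowellD
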